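import Mathlib
import Cfsg.Prelude.Def_Characters

set_option autoImplicit false

/-! Ladder SPLIT (Brauer's splitting field theorem): definitions.
`KCh K G` : the complex class functions afforded by representations of `G` over the field `K`
(a field with an algebra structure into the complex numbers); `KIrr K G` : those afforded by
irreducible ones. -/

namespace Cfsg.Agent.Lib.Helper38.Split

/-- characters of `G` afforded by a representation on a coordinate space over `K` -/
def KCh (K : Type*) [Field K] [Algebra K ℂ] (G : Type*) [Group G] : Set (G → ℂ) :=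
  {χ | ∃ (n : ℕ) (ρ : Representation K G (Fin n → K)),
    ∀ g, χ g = algebraMap K ℂ (ρ.character g)}

/-- characters of `G` afforded by an irreducible representation over `K` -/
def KIrr (K : Type*) [Field K] [Algebra K ℂ] (G : Type*) [Group G] : Set (G → ℂ) :=
  {χ | ∃ (n : ℕ) (ρ : Representation K G (Fin n → K)), ρ.IsIrreducible ∧
    ∀ g, χ g = algebraMap K ℂ (ρ.character g)}

theorem kirr_subset_kch (K : Type*) [Field K] [Algebra K ℂ] (G : Type*) [Group G] :
    KIrr K G ⊆ KCh K G := by
  rintro χ ⟨n, ρ, -, h⟩
  exact ⟨n, ρ, h⟩

end Cfsg.Agent.Lib.Helper38.Split
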