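import Mathlib
import Cfsg.Prelude.Def_Characters
import Cfsg.Agent.Lib.Helper38.SplitDefs
import Cfsg.Agent.Lib.Helper4.RepBasic

set_option autoImplicit false

/-! Ladder SPLIT: basic closure properties of `KCh`, `KIrr` and base change. -/

namespace Cfsg.Agent.Lib.Helper38.Split

open Cfsg Cfsg.Agent.Lib.Helper4

variable {K : Type*} [Field K] [Algebra K ℂ] {G : Type*} [Group G]

/-- any finite dimensional representation over `K` gives a member of `KCh` -/
theorem mem_kch_of_rep {V : Type*} [AddCommGroup V] [Module K V] [FiniteDimensional K V]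
    (ρ : Representation K G V) : (fun g => algebraMap K ℂ (ρ.character g)) ∈ KCh K G := by
  refine ⟨Module.finrank K V, transport ρ (Module.finBasis K V).equivFun, fun g => ?_⟩
  rw [Representation.char_iso (transportEquiv ρ (Module.finBasis K V).equivFun)]

/-- any finite dimensional irreducible representation over `K` gives a member of `KIrr` -/
theorem mem_kirr_of_rep {V : Type*} [AddCommGroup V] [Module K V] [FiniteDimensional K V]
    (ρ : Representation K G V) [hρ : ρ.IsIrreducible] :
    (fun g => algebraMap K ℂ (ρ.character g)) ∈ KIrr K G := by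
  refine ⟨Module.finrank K V, transport ρ (Module.finBasis K V).equivFun, ?_, fun g => ?_⟩
  · exact isIrreducible_of_equiv (transportEquiv ρ (Module.finBasis K V).equivFun).symm
  · rw [Representation.char_iso (transportEquiv ρ (Module.finBasis K V).equivFun)]

theorem kch_zero : (0 : G → ℂ) ∈ KCh K G := by
  refine ⟨0, 1, fun g => ?_⟩
  have : (1 : Representation K G (Fin 0 → K)).character g = 0 := by
    have h : (1 : Representation K G (Fin 0 → K)) g = 0 := by
      ext v i
      exact i.elim0
    unfold Representation.character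
    rw [h, map_zero]
  rw [this, map_zero]
  rfl

theorem kch_add {χ ψ : G → ℂ} (h₁ : χ ∈ KCh K G) (h₂ : ψ ∈ KCh K G) : χ + ψ ∈ KCh K G := by
  obtain ⟨n, ρ, hρ⟩ := h₁
  obtain ⟨m, σ, hσ⟩ := h₂
  have h := mem_kch_of_rep (ρ.prod σ)
  have e : (fun g => algebraMap K ℂ ((ρ.prod σ).character g)) = χ + ψ := by
    funext g
    rw [char_prod, Pi.add_apply, Pi.add_apply, map_add, hρ, hσ]
  rwa [e] at h

/-- base change of a `K`-representation to the complex numbers -/
theorem exists_complex_rep {n : ℕ} (ρ : Representation K G (Fin n → K)) :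
    ∃ σ : Representation ℂ G (Fin n → ℂ),
      (∀ g i j, LinearMap.toMatrix' (σ g) i j = algebraMap K ℂ (LinearMap.toMatrix' (ρ g) i j)) ∧
      ∀ g, σ.character g = algebraMap K ℂ (ρ.character g) := by
  let σ : Representation ℂ G (Fin n → ℂ) :=
    { toFun := fun g => Matrix.toLin' ((LinearMap.toMatrix' (ρ g)).map (algebraMap K ℂ))
      map_one' := by
        rw [map_one]
        have : LinearMap.toMatrix' (1 : (Fin n → K) →ₗ[K] (Fin n → K)) = 1 :=
          LinearMap.toMatrix'_id
        rw [this, Matrix.map_one _ (map_zero _) (map_one _), Matrix.toLin'_one]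
        rfl
      map_mul' := by
        intro a b
        rw [map_mul]
        have : LinearMap.toMatrix' (ρ a * ρ b) =
            LinearMap.toMatrix' (ρ a) * LinearMap.toMatrix' (ρ b) := LinearMap.toMatrix'_mul _ _
        rw [this, Matrix.map_mul, Matrix.toLin'_mul]
        rfl }
  have hσ : ∀ g, LinearMap.toMatrix' (σ g) = (LinearMap.toMatrix' (ρ g)).map (algebraMap K ℂ) := by
    intro g
    exact LinearMap.toMatrix'_toLin' _
  refine ⟨σ, fun g i j => by rw [hσ]; rfl, fun g => ?_⟩
  unfold Representation.character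
  rw [LinearMap.trace_eq_matrix_trace ℂ (Pi.basisFun ℂ (Fin n)),
    LinearMap.trace_eq_matrix_trace K (Pi.basisFun K (Fin n))]
  have e1 : LinearMap.toMatrix (Pi.basisFun ℂ (Fin n)) (Pi.basisFun ℂ (Fin n)) (σ g) =
      LinearMap.toMatrix' (σ g) := by rw [LinearMap.toMatrix_eq_toMatrix']
  have e2 : LinearMap.toMatrix (Pi.basisFun K (Fin n)) (Pi.basisFun K (Fin n)) (ρ g) =
      LinearMap.toMatrix' (ρ g) := by rw [LinearMap.toMatrix_eq_toMatrix']
  rw [e1, e2, hσ]
  simp [Matrix.trace, map_sum]

theorem isCharacter_of_kch {χ : G → ℂ} (h : χ ∈ KCh K G) : IsCharacter G χ := by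
  obtain ⟨n, ρ, hρ⟩ := h
  obtain ⟨σ, -, hσ⟩ := exists_complex_rep ρ
  exact ⟨n, σ, by funext g; rw [hσ, hρ]⟩

end Cfsg.Agent.Lib.Helper38.Split
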