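import Mathlib
import Cfsg.Prelude.Def_Characters
import Cfsg.Agent.Lib.Helper38.SplitBase

set_option autoImplicit false

/-! Ladder SPLIT, rung A: Maschke over `K`. -/

namespace Cfsg.Agent.Lib.Helper38.Split

open Cfsg Cfsg.Agent.Lib.Helper4 Representation Module

variable {K : Type*} [Field K] [Algebra K ℂ] {G : Type*} [Group G]

/-- A complemented pair of subrepresentations gives a product decomposition. -/
noncomputable def equivProdOfIsComplK {V : Type*} [AddCommGroup V] [Module K V]
    (ρ : Representation K G V) (W W' : Subrepresentation ρ)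
    (h : IsCompl W.toSubmodule W'.toSubmodule) :
    (W.toRepresentation.prod W'.toRepresentation).Equiv ρ :=
  Representation.Equiv.mk (Submodule.prodEquivOfIsCompl _ _ h) (fun g => by
    ext v <;> simp [Subrepresentation.toRepresentation])

theorem exists_isCompl_subrepK [Finite G] {V : Type*} [AddCommGroup V] [Module K V]
    (ρ : Representation K G V) (W : Subrepresentation ρ) :
    ∃ W' : Subrepresentation ρ, IsCompl W.toSubmodule W'.toSubmodule := by
  have hchar : CharZero K := (algebraMap K ℂ).charZero
  have : NeZero (Nat.card G : K) := ⟨by exact_mod_cast Nat.card_pos.ne'⟩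
  obtain ⟨W', hW'⟩ := exists_isCompl W
  refine ⟨W', ?_⟩
  constructor
  · rw [disjoint_iff]
    exact congrArg Subrepresentation.toSubmodule hW'.inf_eq_bot
  · rw [codisjoint_iff]
    exact congrArg Subrepresentation.toSubmodule hW'.sup_eq_top

theorem kch_le_closure_aux [Finite G] : ∀ (d : ℕ) {V : Type*} [AddCommGroup V] [Module K V]
    [FiniteDimensional K V] (ρ : Representation K G V), finrank K V = d →
    (fun g => algebraMap K ℂ (ρ.character g)) ∈ AddSubgroup.closure (KIrr K G) := by
  intro d
  induction d using Nat.strong_induction_on with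
  | _ d ih =>
    intro V _ _ _ ρ hd
    by_cases h0 : finrank K V = 0
    · have hz : (fun g => algebraMap K ℂ (ρ.character g)) = 0 := by
        funext g
        have hsub : Subsingleton V := Module.finrank_zero_iff.mp h0
        have h : ρ g = 0 := by
          apply LinearMap.ext
          intro v
          exact Subsingleton.elim _ _
        unfold Representation.character
        rw [h, map_zero, map_zero]
        rfl
      rw [hz]
      exact AddSubgroup.zero_mem _
    by_cases hirr : ρ.IsIrreducible
    · exact AddSubgroup.subset_closure (mem_kirr_of_rep ρ)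
    have hV : Nontrivial V := Module.finrank_pos_iff.mp (Nat.pos_of_ne_zero h0)
    have : ∃ W : Subrepresentation ρ, W ≠ ⊥ ∧ W ≠ ⊤ := by
      have hnt : Nontrivial (Subrepresentation ρ) := by
        refine ⟨⊥, ⊤, fun h => ?_⟩
        have h1 : (⊥ : Submodule K V) = ⊤ := congrArg Subrepresentation.toSubmodule h
        exact bot_ne_top h1
      by_contra hcon
      push Not at hcon
      exact hirr ⟨fun W => by
        by_cases hW : W = ⊥
        · exact Or.inl hW
        · exact Or.inr (hcon W hW)⟩
    obtain ⟨W, hWb, hWt⟩ := this
    obtain ⟨W', hc⟩ := exists_isCompl_subrepK ρ W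
    have hWb' : W.toSubmodule ≠ ⊥ := fun h => hWb (Subrepresentation.toSubmodule_injective h)
    have hWt' : W.toSubmodule ≠ ⊤ := fun h => hWt (Subrepresentation.toSubmodule_injective h)
    have hW'b : W'.toSubmodule ≠ ⊥ := by
      intro h
      rw [h] at hc
      exact hWt' (by simpa using hc.sup_eq_top)
    have hp1 : 0 < finrank K W.toSubmodule :=
      Module.finrank_pos_iff.mpr (Submodule.nontrivial_iff_ne_bot.mpr hWb')
    have hp2 : 0 < finrank K W'.toSubmodule :=
      Module.finrank_pos_iff.mpr (Submodule.nontrivial_iff_ne_bot.mpr hW'b)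
    have hsum : finrank K W.toSubmodule + finrank K W'.toSubmodule = finrank K V :=
      Submodule.finrank_add_eq_of_isCompl hc
    have i1 := ih (finrank K W.toSubmodule) (by omega) W.toRepresentation rfl
    have i2 := ih (finrank K W'.toSubmodule) (by omega) W'.toRepresentation rfl
    have e : (fun g => algebraMap K ℂ (ρ.character g)) =
        (fun g => algebraMap K ℂ (W.toRepresentation.character g)) +
          (fun g => algebraMap K ℂ (W'.toRepresentation.character g)) := by
      funext g
      rw [← char_iso (equivProdOfIsComplK ρ W W' hc), char_prod, Pi.add_apply, Pi.add_apply,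
        map_add]
    rw [e]
    exact AddSubgroup.add_mem _ i1 i2

theorem kch_le_closure [Finite G] {χ : G → ℂ} (h : χ ∈ KCh K G) :
    χ ∈ AddSubgroup.closure (KIrr K G) := by
  obtain ⟨n, ρ, hρ⟩ := h
  have := kch_le_closure_aux (K := K) (G := G) _ ρ rfl
  have e : (fun g => algebraMap K ℂ (ρ.character g)) = χ := by
    funext g
    rw [hρ]
  rwa [e] at this

end Cfsg.Agent.Lib.Helper38.Split
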