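import Mathlib
import Cfsg.Prelude.Def_Characters
import Cfsg.Agent.Lib.Helper38.SplitBase
import Cfsg.Agent.Lib.Helper4.CharBasic

set_option autoImplicit false

/-! Ladder SPLIT, rung B: orthogonality of the characters of irreducible `K`-representations. -/

namespace Cfsg.Agent.Lib.Helper38.Split

open Cfsg Cfsg.Agent.Lib.Helper4 Representation
open scoped ComplexConjugate

variable {K : Type*} [Field K] [Algebra K ℂ] {G : Type*} [Group G]

theorem kirr_orth [Fintype G] {α β : G → ℂ} (hα : α ∈ KIrr K G) (hβ : β ∈ KIrr K G) :
    α = β ∨ classInner α β = 0 := by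
  have hβc : IsCharacter G β := isCharacter_of_kch (kirr_subset_kch K G hβ)
  obtain ⟨n, ρ, hρi, hρ⟩ := hα
  obtain ⟨m, σ, hσi, hσ⟩ := hβ
  have hinj : Function.Injective (algebraMap K ℂ) := (algebraMap K ℂ).injective
  have hchar : CharZero K := (algebraMap K ℂ).charZero
  have hcard : (Nat.card G : K) ≠ 0 := by exact_mod_cast Nat.card_pos.ne'
  have : Invertible (Nat.card G : K) := invertibleOfNonzero hcard
  have key : classInner α β = algebraMap K ℂ (Module.finrank K (IntertwiningMap σ ρ) : K) := by
    rw [← card_inv_mul_sum_char_mul_char_eq_finrank σ ρ, classInner, map_mul, map_inv₀, map_natCast,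
      map_sum]
    congr 1
    refine Finset.sum_congr rfl fun g _ => ?_
    rw [← char_apply_inv hβc, hρ, hσ, map_mul]
  by_cases h0 : Module.finrank K (IntertwiningMap σ ρ) = 0
  · right
    rw [key, h0]
    simp
  · left
    have hpos : 0 < Module.finrank K (IntertwiningMap σ ρ) := Nat.pos_of_ne_zero h0
    have hnt : Nontrivial (IntertwiningMap σ ρ) := Module.finrank_pos_iff (R := K).mp hpos
    obtain ⟨f, hf⟩ := exists_ne (0 : IntertwiningMap σ ρ)
    have hbij : Function.Bijective f := (IsIrreducible.bijective_or_eq_zero f).resolve_right hf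
    let φ : σ.Equiv ρ := Representation.Equiv.mk (LinearEquiv.ofBijective f.toLinearMap hbij)
      (fun g => by
        apply LinearMap.ext
        intro v
        exact IntertwiningMap.isIntertwining σ ρ f g v)
    funext g
    rw [hρ, hσ, char_iso φ]

end Cfsg.Agent.Lib.Helper38.Split
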