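import Mathlib
import Cfsg.Prelude.Def_Characters
import Cfsg.Agent.Lib.Helper38.SplitBase
import Cfsg.Agent.Lib.Helper44.Cosets

set_option autoImplicit false

/-! Ladder SPLIT, rung D: monomial representations over `K`. -/

namespace Cfsg.Agent.Lib.Helper38.Split

open Cfsg Cfsg.Agent.Lib.Helper44

variable {K : Type*} [Field K] [Algebra K ℂ] {G : Type*} [Group G]

theorem indFun_mem_kch [Fintype G] (E : Subgroup G) (lam : E →* ℂˣ)
    (h : ∀ e, (lam e : ℂ) ∈ Set.range (algebraMap K ℂ)) :
    indFun E (fun e => (lam e : ℂ)) ∈ KCh K G := by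
  classical
  have hinj : Function.Injective (algebraMap K ℂ) := (algebraMap K ℂ).injective
  choose μ hμ using h
  have hμ1 : μ 1 = 1 := by
    apply hinj
    rw [hμ, map_one, map_one]
    rfl
  have hμmul : ∀ a b : E, μ (a * b) = μ a * μ b := by
    intro a b
    apply hinj
    rw [hμ, map_mul, map_mul, hμ, hμ]
    rfl
  let μ' : G → K := fun a => if ha : a ∈ E then μ ⟨a, ha⟩ else 0
  have hμ'mem : ∀ a (ha : a ∈ E), μ' a = μ ⟨a, ha⟩ := fun a ha => dif_pos ha
  have hμ'not : ∀ a, a ∉ E → μ' a = 0 := fun a ha => dif_neg ha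
  have hP : ∀ a b : G, b ∈ E → μ' (a * b) = μ' a * μ' b := by
    intro a b hb
    by_cases ha : a ∈ E
    · rw [hμ'mem _ (E.mul_mem ha hb), hμ'mem _ ha, hμ'mem _ hb, ← hμmul]
      rfl
    · have hab : a * b ∉ E := fun hab => ha (by
        have := E.mul_mem hab (E.inv_mem hb)
        simpa using this)
      rw [hμ'not _ hab, hμ'not _ ha, zero_mul]
  have hext : ∀ a : G, algebraMap K ℂ (μ' a) = extendByZero E (fun e => (lam e : ℂ)) a := by
    intro a
    by_cases ha : a ∈ E
    · rw [hμ'mem _ ha, extendByZero_mem E _ ha, hμ]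
    · rw [hμ'not _ ha, extendByZero_not_mem E _ ha, map_zero]
  let s : G ⧸ E → G := Quotient.out
  have hs : ∀ x : G ⧸ E, (QuotientGroup.mk (s x) : G ⧸ E) = x := fun x => QuotientGroup.out_eq' x
  have hmem : ∀ (y : G ⧸ E) (a : G), (s y)⁻¹ * a ∈ E ↔ y = QuotientGroup.mk a := by
    intro y a
    rw [← QuotientGroup.eq, hs]
  let M : G → Matrix (G ⧸ E) (G ⧸ E) K := fun g y x => μ' ((s y)⁻¹ * g * s x)
  have hM1 : M 1 = 1 := by
    ext y x
    show μ' ((s y)⁻¹ * 1 * s x) = _
    rw [mul_one]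
    by_cases hyx : y = x
    · subst hyx
      rw [inv_mul_cancel, Matrix.one_apply_eq, hμ'mem _ E.one_mem]
      exact hμ1
    · rw [Matrix.one_apply_ne hyx, hμ'not]
      rw [hmem, hs]
      exact hyx
  have hMmul : ∀ g k : G, M (g * k) = M g * M k := by
    intro g k
    ext y x
    rw [Matrix.mul_apply]
    show μ' ((s y)⁻¹ * (g * k) * s x) = ∑ z, μ' ((s y)⁻¹ * g * s z) * μ' ((s z)⁻¹ * k * s x)
    rw [Finset.sum_eq_single (QuotientGroup.mk (k * s x) : G ⧸ E)]
    · rw [← hP]
      · congr 1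
        group
      · rw [mul_assoc, hmem]
    · intro z _ hz
      rw [hμ'not ((s z)⁻¹ * k * s x), mul_zero]
      rw [mul_assoc, hmem]
      exact hz
    · intro hcon
      exact absurd (Finset.mem_univ _) hcon
  let ρ : Representation K G ((G ⧸ E) → K) :=
    { toFun := fun g => Matrix.toLin' (M g)
      map_one' := by
        rw [hM1, Matrix.toLin'_one]
        rfl
      map_mul' := by
        intro a b
        rw [hMmul, Matrix.toLin'_mul]
        rfl }
  have hchar : ∀ g, ρ.character g = ∑ x, μ' ((s x)⁻¹ * g * s x) := by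
    intro g
    unfold Representation.character
    show LinearMap.trace K _ (Matrix.toLin' (M g)) = _
    rw [Matrix.trace_toLin'_eq]
    rfl
  have hr : ∀ x : G, ∃! i, (s i)⁻¹ * x ∈ E := by
    intro x
    refine ⟨QuotientGroup.mk x, (hmem _ _).mpr rfl, fun i hi => (hmem _ _).mp hi⟩
  have hfin := mem_kch_of_rep ρ
  have e : (fun g => algebraMap K ℂ (ρ.character g)) = indFun E (fun e => (lam e : ℂ)) := by
    funext g
    rw [indFun_eq_of_transversal E s hr _ ?_ g, hchar, map_sum]
    · exact Finset.sum_congr rfl fun x _ => hext _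
    · intro a b
      simp [mul_comm]
  rwa [e] at hfin

end Cfsg.Agent.Lib.Helper38.Split
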