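import Mathlib
import Cfsg.Prelude.Def_Characters
import Cfsg.Agent.Lib.Helper4.CharInner

set_option autoImplicit false

/-! Ladder SPLIT, rung E: the norm argument. -/

namespace Cfsg.Agent.Lib.Helper38.Split

open Cfsg Cfsg.Agent.Lib.Helper4
open scoped ComplexConjugate

variable {G : Type*} [Group G]

theorem mem_of_mem_closure [Fintype G] {S : Set (G → ℂ)} (hS : ∀ α ∈ S, IsCharacter G α)
    (horth : ∀ α ∈ S, ∀ β ∈ S, α = β ∨ classInner α β = 0) {χ : G → ℂ}
    (hχ : IsIrrCharacter G χ) (hmem : χ ∈ AddSubgroup.closure S) : χ ∈ S := by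
  have hχχ : classInner χ χ = 1 := classInner_irr_self hχ
  -- (1)
  have h1 : ∃ α₀ ∈ S, classInner χ α₀ ≠ 0 := by
    by_contra hcon
    push Not at hcon
    have : ∀ f ∈ AddSubgroup.closure S, classInner χ f = 0 := by
      intro f hf
      induction hf using AddSubgroup.closure_induction with
      | mem φ hφ => exact hcon φ hφ
      | zero =>
        have := classInner_smul_right (0 : ℂ) χ χ
        simpa using this
      | add a b _ _ ha hb => rw [classInner_add_right, ha, hb, add_zero]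
      | neg a _ ha => rw [classInner_neg_right, ha, neg_zero]
    rw [this χ hmem] at hχχ
    exact zero_ne_one hχχ
  obtain ⟨α₀, hα₀, hne⟩ := h1
  -- (2)
  have h2 : ∀ f ∈ AddSubgroup.closure S, ∃ b : ℤ, classInner f α₀ = b * classInner α₀ α₀ := by
    intro f hf
    induction hf using AddSubgroup.closure_induction with
    | mem φ hφ =>
      rcases horth φ hφ α₀ hα₀ with h | h
      · exact ⟨1, by rw [h]; simp⟩
      · exact ⟨0, by rw [h]; simp⟩
    | zero =>
      refine ⟨0, ?_⟩
      have := classInner_smul_left (0 : ℂ) α₀ α₀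
      simpa using this
    | add a b _ _ ha hb =>
      obtain ⟨x, hx⟩ := ha
      obtain ⟨y, hy⟩ := hb
      exact ⟨x + y, by rw [classInner_add_left, hx, hy]; push_cast; ring⟩
    | neg a _ ha =>
      obtain ⟨x, hx⟩ := ha
      exact ⟨-x, by rw [classInner_neg_left, hx]; push_cast; ring⟩
  obtain ⟨b, hb⟩ := h2 χ hmem
  obtain ⟨n, hn⟩ := classInner_char_char (isCharacter_of_irr hχ) (hS α₀ hα₀)
  obtain ⟨N, hN⟩ := classInner_char_char (hS α₀ hα₀) (hS α₀ hα₀)
  have hn' : classInner α₀ χ = n := by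
    rw [← classInner_conj_symm, hn]
    simp
  have hn0 : n ≠ 0 := by
    rintro rfl
    exact hne (by rw [hn]; simp)
  -- (3)
  have h3 : classInner (α₀ - (n : ℂ) • χ) (α₀ - (n : ℂ) • χ) = (N : ℂ) - (n : ℂ) ^ 2 := by
    rw [classInner_sub_left, classInner_sub_right, classInner_sub_right, classInner_smul_left,
      classInner_smul_left, classInner_smul_right, classInner_smul_right, hN, hn, hn', hχχ]
    simp
    ring
  have h3' : (n : ℝ) ^ 2 ≤ N := by
    have h4 := classInner_self_eq (α₀ - (n : ℂ) • χ)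
    rw [h3] at h4
    have h5 : (0 : ℝ) ≤ ((Nat.card G : ℝ))⁻¹ * ∑ g : G, ‖(α₀ - (n : ℂ) • χ) g‖ ^ 2 := by positivity
    have h6 : ((N : ℝ) - (n : ℝ) ^ 2 : ℝ) = ((Nat.card G : ℝ))⁻¹ * ∑ g : G, ‖(α₀ - (n : ℂ) • χ) g‖ ^ 2 := by
      have : (((N : ℝ) - (n : ℝ) ^ 2 : ℝ) : ℂ) =
          ((((Nat.card G : ℝ))⁻¹ * ∑ g : G, ‖(α₀ - (n : ℂ) • χ) g‖ ^ 2 : ℝ) : ℂ) := by
        push_cast
        rw [h4]
        try push_cast
        try rfl
      exact_mod_cast this
    linarith
  have h3'' : n ^ 2 ≤ N := by exact_mod_cast h3'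
  have hbN : (n : ℤ) = b * N := by
    have : ((n : ℤ) : ℂ) = ((b * N : ℤ) : ℂ) := by
      push_cast
      rw [← hn, hb, hN]
    exact_mod_cast this
  have hnpos : 0 < n := Nat.pos_of_ne_zero hn0
  have hNpos : 0 < N := lt_of_lt_of_le (by positivity) h3''
  have hbpos : 0 < b := by
    by_contra hcon
    push Not at hcon
    have : b * (N : ℤ) ≤ 0 := mul_nonpos_of_nonpos_of_nonneg hcon (by positivity)
    have h7 : (0 : ℤ) < n := by exact_mod_cast hnpos
    omega
  have hnN : (N : ℤ) ≤ n := by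
    rw [hbN]
    nlinarith
  have hnN' : N ≤ n := by exact_mod_cast hnN
  have hn1 : n = 1 := by nlinarith
  have hN1 : N = 1 := by
    subst hn1
    omega
  subst hn1
  subst hN1
  -- (4)
  have h8 : classInner (α₀ - χ) (α₀ - χ) = 0 := by
    rw [classInner_sub_left, classInner_sub_right, classInner_sub_right, hN, hn, hn', hχχ]
    simp
  have h9 : α₀ - χ = 0 := classInner_self_eq_zero h8
  have : α₀ = χ := sub_eq_zero.mp h9
  rw [← this]
  exact hα₀

end Cfsg.Agent.Lib.Helper38.Split
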