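import Mathlib

set_option autoImplicit false

/-! Ladder SPLIT, rung F: roots of unity. -/

namespace Cfsg.Agent.Lib.Helper38.Split

variable {G : Type*} [Group G]

theorem lam_mem_adjoin [Finite G] (E : Subgroup G) (lam : E →* ℂˣ) (e : E) :
    (lam e : ℂ) ∈ Algebra.adjoin ℚ
      ({Complex.exp (2 * Real.pi * Complex.I / (Monoid.exponent G : ℂ))} : Set ℂ) := by
  have hm : Monoid.exponent G ≠ 0 := Monoid.exponent_ne_zero_of_finite
  have hprim : IsPrimitiveRoot (Complex.exp (2 * Real.pi * Complex.I / (Monoid.exponent G : ℂ)))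
      (Monoid.exponent G) := Complex.isPrimitiveRoot_exp _ hm
  have h1 : e ^ Monoid.exponent G = 1 := by
    apply Subtype.ext
    rw [Subgroup.coe_pow, Monoid.pow_exponent_eq_one]
    rfl
  have h2 : (lam e : ℂ) ^ Monoid.exponent G = 1 := by
    rw [← Units.val_pow_eq_pow_val, ← map_pow, h1, map_one]
    rfl
  have : NeZero (Monoid.exponent G) := ⟨hm⟩
  obtain ⟨i, -, hi⟩ := hprim.eq_pow_of_pow_eq_one h2
  rw [← hi]
  exact Subalgebra.pow_mem _ (Algebra.subset_adjoin (Set.mem_singleton _)) i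

theorem range_algebraMap_eq (z : ℂ) (hz : IsIntegral ℚ z) :
    Set.range (algebraMap (IntermediateField.adjoin ℚ ({z} : Set ℂ)) ℂ) =
      (Algebra.adjoin ℚ ({z} : Set ℂ) : Set ℂ) := by
  have h := IntermediateField.adjoin_simple_toSubalgebra_of_isAlgebraic hz.isAlgebraic
  ext x
  constructor
  · rintro ⟨y, rfl⟩
    have : (y : ℂ) ∈ (IntermediateField.adjoin ℚ ({z} : Set ℂ)).toSubalgebra := y.2
    rw [h] at this
    exact this
  · intro hx
    have hx' : x ∈ (IntermediateField.adjoin ℚ ({z} : Set ℂ)).toSubalgebra := by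
      rw [h]
      exact hx
    exact ⟨⟨x, hx'⟩, rfl⟩

end Cfsg.Agent.Lib.Helper38.Split
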