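import Mathlib
import Cfsg.Prelude.Def_Characters
import Cfsg.Agent.Lib.Helper38.SplitBase
import Cfsg.Agent.Lib.Helper38.SplitA
import Cfsg.Agent.Lib.Helper38.SplitB
import Cfsg.Agent.Lib.Helper38.SplitD
import Cfsg.Agent.Lib.Helper38.SplitE
import Cfsg.Agent.Lib.Helper38.SplitF
import Cfsg.Agent.Lib.Helper4.Brauer3
import Cfsg.Agent.Lib.Helper4.RepEquiv

set_option autoImplicit false

/-! Ladder SPLIT: Brauer's splitting field theorem, assembly. -/

namespace Cfsg.Agent.Lib.Helper38.Split

open Cfsg Cfsg.Agent.Lib.Helper4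

variable {K : Type*} [Field K] [Algebra K ℂ] {G : Type*} [Group G]

/-- assembly 1 : irreducible characters are afforded over `K` -/
theorem irr_mem_kirr [Fintype G]
    (hK : ∀ (E : Subgroup G) (lam : E →* ℂˣ) (e : E), (lam e : ℂ) ∈ Set.range (algebraMap K ℂ))
    {χ : G → ℂ} (hχ : IsIrrCharacter G χ) : χ ∈ KIrr K G := by
  refine mem_of_mem_closure (fun α hα => isCharacter_of_kch (kirr_subset_kch K G hα))
    (fun α hα β hβ => kirr_orth hα hβ) hχ ?_
  have h1 := char_mem_indSpanLin_isElem (isCharacter_of_irr hχ)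
  unfold indSpanLin at h1
  refine (AddSubgroup.closure_le _).mpr ?_ h1
  rintro φ ⟨E, lam, -, rfl⟩
  exact kch_le_closure (indFun_mem_kch E lam (hK E lam))

/-- assembly 2 : all characters are afforded over `K` -/
theorem char_mem_kch [Fintype G]
    (hK : ∀ (E : Subgroup G) (lam : E →* ℂˣ) (e : E), (lam e : ℂ) ∈ Set.range (algebraMap K ℂ))
    {χ : G → ℂ} (hχ : IsCharacter G χ) : χ ∈ KCh K G := by
  classical
  have := finite_irrCharacter (G := G)
  have := Fintype.ofFinite (IrrCharacter G)
  obtain ⟨m, -, hsum⟩ := char_eq_sum_nat_irr hχ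
  rw [hsum]
  have key : ∀ s : Finset (IrrCharacter G),
      (∑ θ ∈ s, (m θ : ℂ) • (θ : G → ℂ)) ∈ KCh K G := by
    intro s
    induction s using Finset.induction_on with
    | empty => simpa using kch_zero
    | insert a s ha ih =>
      rw [Finset.sum_insert ha]
      refine kch_add ?_ ih
      have : ∀ k : ℕ, ((k : ℂ) • (a : G → ℂ)) ∈ KCh K G := by
        intro k
        induction k with
        | zero => simpa using kch_zero
        | succ k ihk =>
          have e : ((k + 1 : ℕ) : ℂ) • (a : G → ℂ) = (k : ℂ) • (a : G → ℂ) + (a : G → ℂ) := by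
            push_cast
            rw [add_smul, one_smul]
          rw [e]
          exact kch_add ihk (kirr_subset_kch K G (irr_mem_kirr hK a.2))
      exact this _
  exact key _

/-- final -/
theorem final {G : Type*} [Group G] [Finite G] (n : ℕ) (ρ : Representation ℂ G (Fin n → ℂ)) :
    ∃ σ : Representation ℂ G (Fin n → ℂ), Nonempty (ρ.Equiv σ) ∧ ∀ g : G, ∀ i j : Fin n,
      LinearMap.toMatrix' (σ g) i j ∈ Algebra.adjoin ℚ
        ({Complex.exp (2 * Real.pi * Complex.I / (Monoid.exponent G : ℂ))} : Set ℂ) := by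
  classical
  have := Fintype.ofFinite G
  set z : ℂ := Complex.exp (2 * Real.pi * Complex.I / (Monoid.exponent G : ℂ)) with hz
  have hm : Monoid.exponent G ≠ 0 := Monoid.exponent_ne_zero_of_finite
  have hprim : IsPrimitiveRoot z (Monoid.exponent G) := Complex.isPrimitiveRoot_exp _ hm
  have hint : IsIntegral ℚ z := (hprim.isIntegral (Nat.pos_of_ne_zero hm)).tower_top
  have hrange := range_algebraMap_eq z hint
  have hK : ∀ (E : Subgroup G) (lam : E →* ℂˣ) (e : E),
      (lam e : ℂ) ∈ Set.range (algebraMap (IntermediateField.adjoin ℚ ({z} : Set ℂ)) ℂ) := by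
    intro E lam e
    rw [hrange]
    exact lam_mem_adjoin E lam e
  obtain ⟨n', τ, hτ⟩ := char_mem_kch hK (isCharacter_of_rep ρ)
  obtain ⟨σ, hσ1, hσ2⟩ := exists_complex_rep τ
  have hchar : ρ.character = σ.character := by
    funext g
    rw [hσ2, hτ]
  have hnn : n = n' := by
    have h1 := congrFun hchar 1
    rw [Representation.char_one, Representation.char_one, Module.finrank_fin_fun,
      Module.finrank_fin_fun] at h1
    exact_mod_cast h1
  subst hnn
  refine ⟨σ, equiv_of_char_eq_fin n n ρ σ hchar, ?_⟩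
  intro g i j
  rw [hσ1]
  have : algebraMap (IntermediateField.adjoin ℚ ({z} : Set ℂ)) ℂ (LinearMap.toMatrix' (τ g) i j) ∈
      Set.range (algebraMap (IntermediateField.adjoin ℚ ({z} : Set ℂ)) ℂ) := ⟨_, rfl⟩
  rw [hrange] at this
  exact this

end Cfsg.Agent.Lib.Helper38.Split
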