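import Mathlib
import Cfsg.Prelude.Def_Solvable

set_option autoImplicit false

/-! Definitions for the ladder on fixed-point-free representations (`U`-functor). -/

namespace Cfsg.Agent.Lib.Helper38.UF

/-- `x : G → R` is annihilated by all the norm elements `∑_{k ∈ ⟨c⟩} k`, `c ≠ 1`, acting by left
translation. The set of these functions is a module on which `G` acts (by right translation)
without fixed points as soon as the order of `G` is invertible. -/
def InU {G R : Type*} [Group G] [AddCommMonoid R] (x : G → R) : Prop :=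
  ∀ c : G, c ≠ 1 → ∀ g : G, ∑ i ∈ Finset.range (orderOf c), x (c ^ i * g) = 0

/-- being (isomorphic to) a Frobenius complement -/
def IsFC (G : Type*) [Group G] : Prop :=
  ∃ (L : Type) (_ : Group L) (_ : Finite L) (H : Subgroup L),
    Cfsg.IsFrobeniusComplement H ∧ Nonempty (G ≃* H)

/-- reduction `GL_d(Z/p^n) → GL_d(Z/p)` -/
noncomputable abbrev red (p d n : ℕ) (hn : n ≠ 0) :
    GL (Fin d) (ZMod (p ^ n)) →* GL (Fin d) (ZMod p) :=
  Matrix.GeneralLinearGroup.map (ZMod.castHom (dvd_pow_self p hn) (ZMod p))

end Cfsg.Agent.Lib.Helper38.UF
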