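import Mathlib
import Cfsg.Agent.Lib.Helper19.SplitCoprime

set_option autoImplicit false

/-! Rung L2c of the ladder UF: lifting a homomorphism through a surjection with `p`-group kernel. -/

namespace Cfsg.Agent.Lib.Helper38.UF

theorem exists_lift_of_coprime {G E Q : Type*} [Group G] [Finite G] [Group E] [Finite E] [Group Q]
    (π : E →* Q) (hπ : Function.Surjective π) {p : ℕ} [hp : Fact p.Prime] (hker : IsPGroup p π.ker)
    (hcop : (Nat.card G).Coprime p) (ρ : G →* Q) : ∃ σ : G →* E, ∀ g, π (σ g) = ρ g := by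
  let E' : Subgroup (E × G) :=
    MonoidHom.eqLocus (π.comp (MonoidHom.fst E G)) (ρ.comp (MonoidHom.snd E G))
  have hE' : ∀ x : E × G, x ∈ E' ↔ π x.1 = ρ x.2 := fun x => Iff.rfl
  let π' : E' →* G := (MonoidHom.snd E G).comp E'.subtype
  have hπ' : Function.Surjective π' := by
    intro g
    obtain ⟨e, he⟩ := hπ (ρ g)
    exact ⟨⟨(e, g), (hE' _).mpr he⟩, rfl⟩
  -- the kernel of `π'` embeds in the kernel of `π`
  have hkp : IsPGroup p π'.ker := by
    let f : π'.ker →* π.ker :=
      { toFun := fun x => ⟨x.1.1.1, by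
          rw [MonoidHom.mem_ker]
          have h1 : π x.1.1.1 = ρ x.1.1.2 := (hE' _).mp x.1.2
          have h2 : x.1.1.2 = 1 := x.2
          rw [h1, h2, map_one]⟩
        map_one' := rfl
        map_mul' := fun _ _ => rfl }
    apply hker.of_injective f
    intro x y hxy
    apply Subtype.ext
    apply Subtype.ext
    have h1 : x.1.1.1 = y.1.1.1 := congrArg (fun z : π.ker => z.1) hxy
    have h2 : x.1.1.2 = 1 := x.2
    have h3 : y.1.1.2 = 1 := y.2
    exact Prod.ext h1 (h2.trans h3.symm)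
  obtain ⟨k, hk⟩ := IsPGroup.iff_card.mp hkp
  have hc : Nat.Coprime (Nat.card π'.ker) (⊥ : Subgroup G).index := by
    rw [hk, Subgroup.index_bot]
    exact (Nat.Coprime.pow_left k hcop.symm)
  obtain ⟨s, hs, -⟩ := Cfsg.Agent.Lib.Helper19.split_of_coprime (⊥ : Subgroup G) π' hπ' 1
    (by
      intro n
      rw [MonoidHom.one_apply, map_one]
      exact (Subgroup.mem_bot.mp n.2).symm)
    (by
      rw [MonoidHom.range_one]
      infer_instance) hc
  refine ⟨(MonoidHom.fst E G).comp (E'.subtype.comp s), fun g => ?_⟩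
  have h1 : π (s g).1.1 = ρ (s g).1.2 := (hE' _).mp (s g).2
  have h2 : (s g).1.2 = g := hs g
  show π (s g).1.1 = ρ g
  rw [h1, h2]

end Cfsg.Agent.Lib.Helper38.UF
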