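import Mathlib

set_option autoImplicit false

/-! Rung L5a of the ladder UF: an irreducible constituent, in matrix form. -/

namespace Cfsg.Agent.Lib.Helper38.UF

theorem exists_irr_matrix {K G V : Type*} [Field K] [Group G] [AddCommGroup V] [Module K V]
    [FiniteDimensional K V] [Nontrivial V] (ρ : G →* (V →ₗ[K] V))
    (hfree : ∀ g : G, g ≠ 1 → ∀ v : V, ρ g v = v → v = 0) :
    ∃ (n : ℕ) (σ : G →* GL (Fin n) K), 0 < n ∧
      (∀ W : Submodule K (Fin n → K),
        (∀ g : G, ∀ w ∈ W, ((σ g : GL (Fin n) K) : Matrix (Fin n) (Fin n) K).mulVec w ∈ W) →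
          W = ⊥ ∨ W = ⊤) ∧
      ∀ g : G, g ≠ 1 → ∀ v : Fin n → K,
        ((σ g : GL (Fin n) K) : Matrix (Fin n) (Fin n) K).mulVec v = v → v = 0 := by
  classical
  let S : Set (Submodule K V) := {W | W ≠ ⊥ ∧ ∀ g : G, ∀ w ∈ W, ρ g w ∈ W}
  have hS : S.Nonempty := ⟨⊤, top_ne_bot, fun _ _ _ => Submodule.mem_top⟩
  obtain ⟨W₀, ⟨hW0, hWinv⟩, hmin⟩ :=
    (wellFounded_lt (α := Submodule K V)).has_min S hS
  have hmin' : ∀ W : Submodule K V, W ≤ W₀ → (∀ g : G, ∀ w ∈ W, ρ g w ∈ W) → W = ⊥ ∨ W = W₀ := by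
    intro W hle hinv
    by_cases hb : W = ⊥
    · exact Or.inl hb
    · right
      by_contra hne
      exact hmin W ⟨hb, hinv⟩ (lt_of_le_of_ne hle hne)
  let ρ₀ : G →* (W₀ →ₗ[K] W₀) :=
    { toFun := fun g => (ρ g).restrict (hWinv g)
      map_one' := by
        apply LinearMap.ext
        intro w
        apply Subtype.ext
        show ρ 1 w.1 = w.1
        rw [map_one]
        rfl
      map_mul' := by
        intro a b
        apply LinearMap.ext
        intro w
        apply Subtype.ext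
        show ρ (a * b) w.1 = ρ a (ρ b w.1)
        rw [map_mul]
        rfl }
  have hρ₀ : ∀ g (w : W₀), (ρ₀ g w).1 = ρ g w.1 := fun _ _ => rfl
  have hnt : Nontrivial W₀ := (Submodule.nontrivial_iff_ne_bot).mpr hW0
  let b := Module.finBasis K W₀
  let M : G →* Matrix (Fin (Module.finrank K W₀)) (Fin (Module.finrank K W₀)) K :=
    ((LinearMap.toMatrixAlgEquiv b : (W₀ →ₗ[K] W₀) ≃ₐ[K] _) : (W₀ →ₗ[K] W₀) →* _).comp ρ₀
  have hkey : ∀ g (w : W₀), (M g).mulVec (b.equivFun w) = b.equivFun (ρ₀ g w) := by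
    intro g w
    exact LinearMap.toMatrix_mulVec_repr b b (ρ₀ g) w
  refine ⟨Module.finrank K W₀, M.toHomUnits, Module.finrank_pos, ?_, ?_⟩
  · intro W hW
    have hW' : ∀ g : G, ∀ w ∈ W, (M g).mulVec w ∈ W := hW
    let W' : Submodule K V := (W.comap b.equivFun.toLinearMap).map W₀.subtype
    have hle : W' ≤ W₀ := by
      rintro _ ⟨w, -, rfl⟩
      exact w.2
    have hinv : ∀ g : G, ∀ w ∈ W', ρ g w ∈ W' := by
      rintro g _ ⟨w, hw, rfl⟩
      refine ⟨ρ₀ g w, ?_, rfl⟩
      show b.equivFun (ρ₀ g w) ∈ W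
      rw [← hkey]
      exact hW' g _ hw
    rcases hmin' W' hle hinv with h | h
    · left
      rw [eq_bot_iff]
      intro v hv
      obtain ⟨w, rfl⟩ := b.equivFun.surjective v
      have h1 : (w : V) ∈ W' := ⟨w, hv, rfl⟩
      rw [h, Submodule.mem_bot] at h1
      have h2 : w = 0 := Subtype.ext h1
      rw [h2, map_zero]
      exact Submodule.zero_mem _
    · right
      rw [eq_top_iff]
      intro v _
      obtain ⟨w, rfl⟩ := b.equivFun.surjective v
      have h1 : (w : V) ∈ W' := by rw [h]; exact w.2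
      obtain ⟨w', hw', hww⟩ := h1
      have h2 : w' = w := Subtype.ext hww
      rw [← h2]
      exact hw'
  · intro g hg v hv
    have hv' : (M g).mulVec v = v := hv
    obtain ⟨w, rfl⟩ := b.equivFun.surjective v
    rw [hkey] at hv'
    have h1 := b.equivFun.injective hv'
    have h2 : ρ g w.1 = w.1 := by rw [← hρ₀, h1]
    have h3 := hfree g hg _ h2
    have h4 : w = 0 := Subtype.ext h3
    rw [h4, map_zero]

end Cfsg.Agent.Lib.Helper38.UF
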