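import Mathlib
import Cfsg.Agent.Lib.Helper38.UFDefs
import Cfsg.Agent.Lib.Helper75.FrobConstruct

set_option autoImplicit false

/-! Rungs L5b, L7 of the ladder UF. -/

namespace Cfsg.Agent.Lib.Helper38.UF

/-- the module of all `x` with `InU x` -/
def USub (G K : Type*) [Group G] [Field K] : Submodule K (G → K) where
  carrier := {x | InU x}
  add_mem' := by
    intro x y hx hy c hc g
    simp only [Pi.add_apply, Finset.sum_add_distrib, hx c hc g, hy c hc g, add_zero]
  zero_mem' := by
    intro c _ g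
    simp
  smul_mem' := by
    intro a x hx c hc g
    simp only [Pi.smul_apply, smul_eq_mul, ← Finset.mul_sum, hx c hc g, mul_zero]

/-- right translation on `USub` -/
def URep (G K : Type*) [Group G] [Field K] : G →* (USub G K →ₗ[K] USub G K) where
  toFun h :=
    { toFun := fun x => ⟨fun g => x.1 (g * h), by
        intro c hc g
        have := x.2 c hc (g * h)
        simpa only [mul_assoc] using this⟩
      map_add' := fun x y => rfl
      map_smul' := fun a x => rfl }
  map_one' := by
    apply LinearMap.ext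
    intro x
    apply Subtype.ext
    funext g
    show x.1 (g * 1) = x.1 g
    rw [mul_one]
  map_mul' := by
    intro a b
    apply LinearMap.ext
    intro x
    apply Subtype.ext
    funext g
    show x.1 (g * (a * b)) = x.1 (g * a * b)
    rw [mul_assoc]

theorem URep_apply {G K : Type*} [Group G] [Field K] (h : G) (x : USub G K) (g : G) :
    (URep G K h x).1 g = x.1 (g * h) := rfl

theorem URep_free {G K : Type*} [Group G] [Finite G] [Field K]
    (hK : ((Nat.card G : ℕ) : K) ≠ 0) (h : G) (hh : h ≠ 1) (x : USub G K)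
    (hx : URep G K h x = x) : x = 0 := by
  have h1 : ∀ g, x.1 (g * h) = x.1 g := fun g => by
    rw [← URep_apply, hx]
  have h2 : ∀ (i : ℕ) g, x.1 (g * h ^ i) = x.1 g := by
    intro i
    induction i with
    | zero => intro g; rw [pow_zero, mul_one]
    | succ i ih =>
      intro g
      rw [pow_succ, ← mul_assoc, h1, ih]
  apply Subtype.ext
  funext g
  have hc : g * h * g⁻¹ ≠ 1 := by
    intro h3
    apply hh
    have : h = g⁻¹ * (g * h * g⁻¹) * g := by group
    rw [this, h3]
    group
  have h3 := x.2 (g * h * g⁻¹) hc g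
  have h4 : ∀ i : ℕ, (g * h * g⁻¹) ^ i * g = g * h ^ i := by
    intro i
    rw [conj_pow]
    group
  simp only [h4, h2, Finset.sum_const, Finset.card_range, nsmul_eq_mul] at h3
  have h5 : ((orderOf (g * h * g⁻¹) : ℕ) : K) ≠ 0 := by
    intro h6
    apply hK
    obtain ⟨k, hk⟩ := orderOf_dvd_natCard (g * h * g⁻¹)
    rw [hk, Nat.cast_mul, h6, zero_mul]
  exact (mul_eq_zero.mp h3).resolve_left h5

theorem exists_free_module {G K : Type*} [Group G] [Finite G] [Field K]
    (hK : ((Nat.card G : ℕ) : K) ≠ 0) (h : ∃ x : G → K, InU x ∧ x ≠ 0) :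
    ∃ (V : Submodule K (G → K)) (ρ : G →* (V →ₗ[K] V)), Nontrivial V ∧
      ∀ g : G, g ≠ 1 → ∀ v : V, ρ g v = v → v = 0 := by
  obtain ⟨x, hx, hx0⟩ := h
  refine ⟨USub G K, URep G K, ⟨⟨⟨x, hx⟩, 0, fun h => hx0 (congrArg Subtype.val h)⟩⟩, ?_⟩
  intro g hg v hv
  exact URep_free hK g hg v hv

theorem isFC_of_hasU {G : Type*} [Group G] [Finite G] [Nontrivial G] (l : ℕ) [hl : Fact l.Prime]
    (hcop : (Nat.card G).Coprime l) (h : ∃ x : G → ZMod l, InU x ∧ x ≠ 0) : IsFC G := by
  have hK : ((Nat.card G : ℕ) : ZMod l) ≠ 0 := by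
    rw [Ne, ZMod.natCast_eq_zero_iff]
    intro hdvd
    have := Nat.Coprime.eq_one_of_dvd hcop.symm hdvd
    exact hl.out.one_lt.ne' this
  obtain ⟨V, ρ, hV, hfree⟩ := exists_free_module hK h
  obtain ⟨L, i1, i2, C, hC, hiso, -⟩ := Cfsg.Agent.Lib.Helper75.exists_frobenius_of_module
    (H := G) (R := Module.End (ZMod l) V) (M := V) ρ (fun g hg v hv => hfree g hg v hv)
  exact ⟨L, i1, i2, C, hC, hiso⟩

end Cfsg.Agent.Lib.Helper38.UF
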