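import Mathlib
import Cfsg.Agent.Lib.Helper38.UFDefs

set_option autoImplicit false

/-! Rung L6 of the ladder UF. -/

namespace Cfsg.Agent.Lib.Helper38.UF

theorem hasU_int_of_rat {G : Type*} [Group G] [Finite G] (h : ∃ x : G → ℚ, InU x ∧ x ≠ 0) :
    ∃ y : G → ℤ, InU y ∧ y ≠ 0 := by
  classical
  have : Fintype G := Fintype.ofFinite G
  obtain ⟨x, hx, hx0⟩ := h
  obtain ⟨b, hb⟩ := IsLocalization.exist_integer_multiples (nonZeroDivisors ℤ) Finset.univ x
  have hb0 : ((b : ℤ) : ℚ) ≠ 0 := by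
    have := nonZeroDivisors.coe_ne_zero b
    exact_mod_cast this
  choose y hy using fun g => hb g (Finset.mem_univ g)
  have hy' : ∀ g, ((y g : ℤ) : ℚ) = (b : ℤ) * x g := by
    intro g
    have := hy g
    simpa [Algebra.smul_def] using this
  refine ⟨y, ?_, ?_⟩
  · intro c hc g
    have h1 : ((∑ i ∈ Finset.range (orderOf c), y (c ^ i * g) : ℤ) : ℚ) = 0 := by
      rw [Int.cast_sum]
      simp only [hy', ← Finset.mul_sum, hx c hc g, mul_zero]
    exact_mod_cast h1
  · intro h0
    apply hx0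
    funext g
    have h1 := hy' g
    rw [h0] at h1
    simp only [Pi.zero_apply, Int.cast_zero] at h1
    exact (mul_eq_zero.mp h1.symm).resolve_left hb0

theorem hasU_zmod_of_rat {G : Type*} [Group G] [Finite G] (h : ∃ x : G → ℚ, InU x ∧ x ≠ 0)
    (l : ℕ) [hl : Fact l.Prime] : ∃ x : G → ZMod l, InU x ∧ x ≠ 0 := by
  classical
  have : Fintype G := Fintype.ofFinite G
  obtain ⟨y, hy, hy0⟩ := hasU_int_of_rat h
  obtain ⟨z, hz, hz1⟩ := Finset.extract_gcd y (Finset.univ_nonempty (α := G))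
  have hd : (Finset.univ : Finset G).gcd y ≠ 0 := by
    intro h0
    rw [Finset.gcd_eq_zero_iff] at h0
    exact hy0 (funext fun g => h0 g (Finset.mem_univ g))
  have hzU : InU z := by
    intro c hc g
    have h1 := hy c hc g
    simp only [fun g => hz g (Finset.mem_univ g), ← Finset.mul_sum] at h1
    exact (mul_eq_zero.mp h1).resolve_left hd
  refine ⟨fun g => ((z g : ℤ) : ZMod l), ?_, ?_⟩
  · intro c hc g
    rw [← Int.cast_sum, hzU c hc g, Int.cast_zero]
  · intro h0
    have h1 : ((l : ℕ) : ℤ) ∣ (Finset.univ : Finset G).gcd z := by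
      apply Finset.dvd_gcd
      intro g _
      have := congrFun h0 g
      exact (ZMod.intCast_zmod_eq_zero_iff_dvd (z g) l).mp this
    rw [hz1] at h1
    have h2 := Int.natAbs_dvd_natAbs.mpr h1
    simp only [Int.natAbs_natCast, Int.natAbs_one, Nat.dvd_one] at h2
    exact hl.out.one_lt.ne' h2

end Cfsg.Agent.Lib.Helper38.UF
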