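import Mathlib
import Cfsg.Agent.Lib.Helper38.UFDefs

set_option autoImplicit false

/-! Rung L8 of the ladder UF. -/

namespace Cfsg.Agent.Lib.Helper38.UF

/-- sum over `range (m₁ m₂)` of a function of the residues, `m₁`, `m₂` coprime -/
theorem sum_range_mul_coprime {R : Type*} [AddCommMonoid R] {m₁ m₂ : ℕ} (h : m₁.Coprime m₂)
    (h1 : 0 < m₁) (h2 : 0 < m₂) (f : ℕ → ℕ → R) :
    ∑ i ∈ Finset.range (m₁ * m₂), f (i % m₁) (i % m₂) =
      ∑ i ∈ Finset.range m₁, ∑ j ∈ Finset.range m₂, f i j := by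
  rw [← Finset.sum_product']
  apply Finset.sum_bij' (fun i _ => (i % m₁, i % m₂))
    (fun ij _ => ((Nat.chineseRemainder h ij.1 ij.2 : ℕ)))
  · intro i _
    simp only [Finset.mem_product, Finset.mem_range]
    exact ⟨Nat.mod_lt _ h1, Nat.mod_lt _ h2⟩
  · intro ij _
    rw [Finset.mem_range]
    exact Nat.chineseRemainder_lt_mul h ij.1 ij.2 h1.ne' h2.ne'
  · intro i hi
    rw [Finset.mem_range] at hi
    have h3 := (Nat.chineseRemainder h (i % m₁) (i % m₂)).2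
    have h4 : (Nat.chineseRemainder h (i % m₁) (i % m₂) : ℕ) ≡ i [MOD m₁ * m₂] := by
      rw [← Nat.modEq_and_modEq_iff_modEq_mul h]
      exact ⟨h3.1.trans (Nat.mod_modEq _ _), h3.2.trans (Nat.mod_modEq _ _)⟩
    have h5 := Nat.chineseRemainder_lt_mul h (i % m₁) (i % m₂) h1.ne' h2.ne'
    exact Nat.ModEq.eq_of_lt_of_lt h4 h5 hi
  · rintro ⟨i, j⟩ hij
    simp only [Finset.mem_product, Finset.mem_range] at hij
    have h3 := (Nat.chineseRemainder h i j).2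
    ext
    · exact (Nat.mod_eq_of_modEq h3.1 hij.1)
    · exact (Nat.mod_eq_of_modEq h3.2 hij.2)
  · intro i _
    rfl

theorem hasU_prod {A B : Type*} [Group A] [Finite A] [Group B] [Finite B]
    (hcop : (Nat.card A).Coprime (Nat.card B)) (hA : ∃ x : A → ℚ, InU x ∧ x ≠ 0)
    (hB : ∃ x : B → ℚ, InU x ∧ x ≠ 0) : ∃ x : A × B → ℚ, InU x ∧ x ≠ 0 := by
  obtain ⟨x, hx, hx0⟩ := hA
  obtain ⟨y, hy, hy0⟩ := hB
  refine ⟨fun ab => x ab.1 * y ab.2, ?_, ?_⟩
  · rintro ⟨c₁, c₂⟩ hc ⟨a, b⟩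
    have hm : (orderOf c₁).Coprime (orderOf c₂) :=
      Nat.Coprime.of_dvd (orderOf_dvd_natCard c₁) (orderOf_dvd_natCard c₂) hcop
    have ho : orderOf ((c₁, c₂) : A × B) = orderOf c₁ * orderOf c₂ := by
      rw [Prod.orderOf, hm.lcm_eq_mul]
    rw [ho]
    have h1 : ∀ i : ℕ, x (((c₁, c₂) : A × B) ^ i * (a, b)).1 * y (((c₁, c₂) : A × B) ^ i * (a, b)).2 =
        x (c₁ ^ (i % orderOf c₁) * a) * y (c₂ ^ (i % orderOf c₂) * b) := by
      intro i
      rw [pow_mod_orderOf, pow_mod_orderOf]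
      rfl
    simp only [h1]
    rw [sum_range_mul_coprime hm (orderOf_pos c₁) (orderOf_pos c₂)
      (fun i j => x (c₁ ^ i * a) * y (c₂ ^ j * b)), ← Finset.sum_mul_sum]
    by_cases hc1 : c₁ = 1
    · have hc2 : c₂ ≠ 1 := by
        rintro rfl
        exact hc (by rw [hc1]; rfl)
      rw [hy c₂ hc2 b, mul_zero]
    · rw [hx c₁ hc1 a, zero_mul]
  · intro h
    obtain ⟨a, ha⟩ : ∃ a, x a ≠ 0 := by
      by_contra hcon
      push Not at hcon
      exact hx0 (funext hcon)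
    obtain ⟨b, hb⟩ : ∃ b, y b ≠ 0 := by
      by_contra hcon
      push Not at hcon
      exact hy0 (funext hcon)
    exact mul_ne_zero ha hb (congrFun h (a, b))

end Cfsg.Agent.Lib.Helper38.UF
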