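import Mathlib

set_option autoImplicit false

/-! Definitions for the ladder on transitive groups of degree `p + 1` and order `(p+1) p d`. -/

namespace Cfsg.Agent.Lib.Helper38.Z32

open OnePoint

/-- `γ` is the affine map `x ↦ k x + c` of the projective line `F ∪ {∞}`. -/
def IsAff {F : Type*} [Field F] (γ : Equiv.Perm (OnePoint F)) (k c : F) : Prop :=
  γ ∞ = ∞ ∧ ∀ x : F, γ (x : OnePoint F) = ((k * x + c : F) : OnePoint F)

/-- A group of permutations of the projective line which contains all translations, does not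
fix `∞`, and in which the stabiliser of `∞` consists of affine maps. -/
structure Conc (F : Type*) [Field F] (Γ : Subgroup (Equiv.Perm (OnePoint F))) : Prop where
  transl : ∀ b : F, ∃ γ ∈ Γ, IsAff γ 1 b
  aff : ∀ γ ∈ Γ, γ ∞ = ∞ → ∃ k c : F, k ≠ 0 ∧ IsAff γ k c
  moves : ∃ γ ∈ Γ, γ ∞ ≠ ∞

/-- the translations in `Γ` -/
def TT {F : Type*} [Field F] (Γ : Subgroup (Equiv.Perm (OnePoint F))) : Subgroup Γ where
  carrier := {γ | ∃ b : F, IsAff (γ : Equiv.Perm (OnePoint F)) 1 b}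
  one_mem' := ⟨0, rfl, fun x => by simp⟩
  mul_mem' := by
    rintro γ δ ⟨b, h1, h2⟩ ⟨c, h3, h4⟩
    refine ⟨c + b, ?_, fun x => ?_⟩
    · show (γ : Equiv.Perm (OnePoint F)) ((δ : Equiv.Perm (OnePoint F)) ∞) = ∞
      rw [h3, h1]
    · show (γ : Equiv.Perm (OnePoint F)) ((δ : Equiv.Perm (OnePoint F)) x) = _
      rw [h4, h2]
      congr 1
      ring
  inv_mem' := by
    rintro γ ⟨b, h1, h2⟩
    refine ⟨-b, ?_, fun x => ?_⟩
    · show (γ : Equiv.Perm (OnePoint F))⁻¹ ∞ = ∞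
      rw [Equiv.Perm.inv_eq_iff_eq, h1]
    · show (γ : Equiv.Perm (OnePoint F))⁻¹ x = _
      rw [Equiv.Perm.inv_eq_iff_eq, h2]
      congr 1
      ring

end Cfsg.Agent.Lib.Helper38.Z32
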