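import Mathlib
import Cfsg.Agent.Lib.Helper38.Z32Defs

set_option autoImplicit false

/-! Rung R3: an involution of `Γ` which swaps `0` and `∞` is `x ↦ s / x`. -/

namespace Cfsg.Agent.Lib.Helper38.Z32

open OnePoint

theorem fe_lemma {F : Type*} [Field F] (h2 : (2 : F) ≠ 0) (φ : F → F)
    (h0 : ∀ x, x ≠ 0 → φ x ≠ 0) (h1 : ∀ x, x ≠ 0 → φ (φ x) = x)
    (hn : ∀ x, x ≠ 0 → φ (-x) = - φ x)
    (h3 : ∀ y b, y ≠ 0 → b ≠ 0 → y + b ≠ 0 → φ (y + b) = φ b - (φ b / b) * φ (φ y + φ b)) :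
    ∀ x, x ≠ 0 → φ x = φ 1 / x := by
  have s1 : ∀ y b, y ≠ 0 → b ≠ 0 → y + b ≠ 0 → φ y + φ b ≠ 0 := by
    intro y b hy hb hyb h
    apply hyb
    have h4 : φ y = φ (-b) := by rw [hn b hb]; linear_combination h
    have h5 := congrArg φ h4
    rw [h1 y hy, h1 (-b) (neg_ne_zero.mpr hb)] at h5
    rw [h5]; ring
  have s2 : ∀ y b, y ≠ 0 → b ≠ 0 → y + b ≠ 0 →
      φ b - φ y = φ (φ y + φ b) * (φ b / b - φ y / y) := by
    intro y b hy hb hyb
    have e1 := h3 y b hy hb hyb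
    have e2 := h3 b y hb hy (by rwa [add_comm])
    rw [add_comm b y, add_comm (φ b) (φ y)] at e2
    linear_combination e2 - e1
  have s3 : ∀ y b, y ≠ 0 → b ≠ 0 → y + b ≠ 0 →
      b - y = φ (y + b) * (b / φ b - y / φ y) := by
    intro y b hy hb hyb
    have := s2 (φ y) (φ b) (h0 y hy) (h0 b hb) (s1 y b hy hb hyb)
    rwa [h1 y hy, h1 b hb] at this
  have s5 : ∀ y b, y ≠ 0 → b ≠ 0 → y + b ≠ 0 → b - y ≠ 0 →
      (b - y) * φ (b - y) = (b + y) * φ (b + y) := by
    intro y b hy hb hyb hby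
    have e1 := s3 y b hy hb hyb
    have e2 := s3 (-y) b (neg_ne_zero.mpr hy) hb (by rwa [neg_add_eq_sub])
    rw [hn y hy, neg_div_neg_eq, neg_add_eq_sub, sub_neg_eq_add] at e2
    rw [add_comm y b] at e1
    linear_combination φ (b - y) * e1 - φ (b + y) * e2
  intro x hx
  have key : x * φ x = φ 1 := by
    by_cases hx1 : x = 1
    · rw [hx1, one_mul]
    by_cases hx2 : x = -1
    · rw [hx2, hn 1 one_ne_zero]; ring
    have hb : (x + 1) / 2 ≠ 0 := by
      apply div_ne_zero _ h2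
      intro h
      exact hx2 (by linear_combination h)
    have hy : (x - 1) / 2 ≠ 0 := by
      apply div_ne_zero _ h2
      intro h
      exact hx1 (by linear_combination h)
    have e1 : (x + 1) / 2 + (x - 1) / 2 = x := by field_simp; ring
    have e2 : (x + 1) / 2 - (x - 1) / 2 = 1 := by field_simp; ring
    have := s5 ((x - 1) / 2) ((x + 1) / 2) hy hb (by rw [add_comm, e1]; exact hx)
      (by rw [e2]; exact one_ne_zero)
    rw [e1, e2, one_mul] at this
    exact this.symm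
  rw [eq_div_iff hx, mul_comm]
  exact key

theorem swap_eq_inv {F : Type*} [Field F] (h2 : (2 : F) ≠ 0)
    (Γ : Subgroup (Equiv.Perm (OnePoint F))) (hΓ : Conc F Γ)
    (hneg : ∃ γ ∈ Γ, IsAff γ (-1) 0)
    (w : Equiv.Perm (OnePoint F)) (hw : w ∈ Γ) (hw1 : w ∞ = ((0 : F) : OnePoint F))
    (hw2 : w ((0 : F) : OnePoint F) = ∞) (hww : w * w = 1) :
    ∃ s : F, s ≠ 0 ∧ (∀ x : F, x ≠ 0 → w (x : OnePoint F) = ((s / x : F) : OnePoint F)) ∧
      ∃ γ ∈ Γ, IsAff γ (-s) 0 := by
  have hwi : ∀ z, w (w z) = z := fun z => by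
    have := congrArg (fun f : Equiv.Perm (OnePoint F) => f z) hww
    simpa using this
  have hex : ∀ x : F, x ≠ 0 → ∃ y : F, w (x : OnePoint F) = (y : OnePoint F) := by
    intro x hx
    have : w (x : OnePoint F) ≠ ∞ := by
      intro h
      rw [← hw2] at h
      exact hx (OnePoint.coe_injective (w.injective h))
    obtain ⟨y, hy⟩ := OnePoint.ne_infty_iff_exists.mp this
    exact ⟨y, hy.symm⟩
  choose! φ hφ using hex
  have h0 : ∀ x, x ≠ 0 → φ x ≠ 0 := by
    intro x hx h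
    have h3 := hφ x hx
    rw [h, ← hw1] at h3
    exact OnePoint.coe_ne_infty x (w.injective h3)
  have h1 : ∀ x, x ≠ 0 → φ (φ x) = x := by
    intro x hx
    have h3 := hφ (φ x) (h0 x hx)
    rw [← hφ x hx, hwi] at h3
    exact (OnePoint.coe_injective h3).symm
  -- conjugating a multiplication by `w`
  have hA : ∀ k : F, (∃ γ ∈ Γ, IsAff γ k 0) → ∃ k' : F, (∃ γ ∈ Γ, IsAff γ k' 0) ∧
      ∀ y, y ≠ 0 → k * y ≠ 0 → φ (k * y) = k' * φ y := by
    rintro k ⟨γ, hγ, hγ1, hγ2⟩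
    have hm : w * γ * w ∈ Γ := Γ.mul_mem (Γ.mul_mem hw hγ) hw
    have hinf : (w * γ * w) ∞ = ∞ := by
      simp only [Equiv.Perm.mul_apply, hw1, hγ2, mul_zero, add_zero, hw2]
    obtain ⟨k', c, hk', hc1, hc2⟩ := hΓ.aff _ hm hinf
    have hc : c = 0 := by
      have h3 := hc2 0
      simp only [Equiv.Perm.mul_apply, hw2, hγ1, hw1, mul_zero, zero_add] at h3
      exact (OnePoint.coe_injective h3).symm
    subst hc
    refine ⟨k', ⟨_, hm, hc1, hc2⟩, fun y hy hky => ?_⟩
    have h3 := hc2 (φ y)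
    simp only [Equiv.Perm.mul_apply, ← hφ y hy, hwi, hγ2, add_zero] at h3
    rw [hφ _ hky] at h3
    exact OnePoint.coe_injective h3
  -- `φ` is odd
  have hn : ∀ x, x ≠ 0 → φ (-x) = - φ x := by
    obtain ⟨m, -, hm⟩ := hA (-1) hneg
    have hm' : ∀ y, y ≠ 0 → φ (-y) = m * φ y := by
      intro y hy
      have := hm y hy (by simpa using hy)
      rwa [neg_one_mul] at this
    have hmm : m * m = 1 := by
      have e1 := hm' 1 one_ne_zero
      have e2 := hm' (-1) (neg_ne_zero.mpr one_ne_zero)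
      rw [neg_neg, e1] at e2
      have h3 := h0 1 one_ne_zero
      apply mul_right_cancel₀ h3
      rw [one_mul, mul_assoc]
      exact e2.symm
    have hm1 : m ≠ 1 := by
      intro h
      have e1 := hm' 1 one_ne_zero
      rw [h, one_mul] at e1
      have e2 := congrArg φ e1
      rw [h1 1 one_ne_zero, h1 (-1) (neg_ne_zero.mpr one_ne_zero)] at e2
      apply h2
      linear_combination -e2
    have hm2 : m = -1 := by
      have : (m - 1) * (m + 1) = 0 := by linear_combination hmm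
      rcases mul_eq_zero.mp this with h | h
      · exact absurd (by linear_combination h) hm1
      · linear_combination h
    intro x hx
    rw [hm' x hx, hm2, neg_one_mul]
  -- the Bruhat relation
  have hB : ∀ b : F, b ≠ 0 → (∃ γ ∈ Γ, IsAff γ (-(φ b / b)) 0) ∧
      ∀ x, x ≠ 0 → x + φ b ≠ 0 → φ x + b ≠ 0 →
        φ (φ x + b) = φ b - (φ b / b) * φ (x + φ b) := by
    intro b hb
    obtain ⟨t, ht, ht1, ht2⟩ := hΓ.transl b
    obtain ⟨u, hu, hu1, hu2⟩ := hΓ.transl (-φ b)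
    have hβ := h0 b hb
    have hm : w * u * w * t * w ∈ Γ :=
      Γ.mul_mem (Γ.mul_mem (Γ.mul_mem (Γ.mul_mem hw hu) hw) ht) hw
    have hinf : (w * u * w * t * w) ∞ = ∞ := by
      simp only [Equiv.Perm.mul_apply, hw1, ht2, mul_zero, zero_add, hφ b hb, hu2, one_mul,
        add_neg_cancel, hw2]
    obtain ⟨k, c, hk, hc1, hc2⟩ := hΓ.aff _ hm hinf
    have hc : c = -b := by
      have h3 := hc2 0
      simp only [Equiv.Perm.mul_apply, hw2, ht1, hw1, hu2, mul_zero, zero_add,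
        hφ (-φ b) (neg_ne_zero.mpr hβ), hn (φ b) hβ, h1 b hb] at h3
      exact (OnePoint.coe_injective h3).symm
    subst hc
    have hkb : k * φ b = -b := by
      have h3 := hc2 (-φ b)
      simp only [Equiv.Perm.mul_apply, hφ (-φ b) (neg_ne_zero.mpr hβ), hn (φ b) hβ, h1 b hb,
        ht2, one_mul, neg_add_cancel, hw2, hu1, hw1] at h3
      have h4 := OnePoint.coe_injective h3
      linear_combination h4
    have hmk : t * (w * u * w * t * w) ∈ Γ := Γ.mul_mem ht hm
    have hak : IsAff (t * (w * u * w * t * w)) k 0 := by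
      refine ⟨?_, fun x => ?_⟩
      · rw [Equiv.Perm.mul_apply, hc1, ht1]
      · rw [Equiv.Perm.mul_apply, hc2, ht2]
        congr 1
        ring
    obtain ⟨k', hk'Γ, hk'⟩ := hA k ⟨_, hmk, hak⟩
    have hk'b : k' = -(φ b / b) := by
      have h3 := hk' (φ b) hβ (mul_ne_zero hk hβ)
      rw [hkb, hn b hb, h1 b hb] at h3
      rw [eq_neg_iff_add_eq_zero]
      field_simp
      linear_combination -h3
    rw [hk'b] at hk'Γ hk'
    refine ⟨hk'Γ, fun x hx hxβ hxb => ?_⟩
    have h3 := hc2 x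
    simp only [Equiv.Perm.mul_apply, hφ x hx, ht2, one_mul, hφ _ hxb, hu2] at h3
    have h4 := congrArg w h3
    rw [hwi] at h4
    have h5 : k * x + -b = k * (x + φ b) := by rw [mul_add, hkb]
    rw [h5, hφ _ (mul_ne_zero hk hxβ), hk' _ hxβ (mul_ne_zero hk hxβ)] at h4
    have h6 := OnePoint.coe_injective h4
    linear_combination h6
  have h3 : ∀ y b, y ≠ 0 → b ≠ 0 → y + b ≠ 0 →
      φ (y + b) = φ b - (φ b / b) * φ (φ y + φ b) := by
    intro y b hy hb hyb
    have hne : φ y + φ b ≠ 0 := by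
      intro h
      apply hyb
      have h4 : φ y = φ (-b) := by rw [hn b hb]; linear_combination h
      have h5 := congrArg φ h4
      rw [h1 y hy, h1 (-b) (neg_ne_zero.mpr hb)] at h5
      rw [h5]; ring
    have := (hB b hb).2 (φ y) (h0 y hy) hne (by rw [h1 y hy]; exact hyb)
    rwa [h1 y hy] at this
  have hfin := fe_lemma h2 φ h0 h1 hn h3
  refine ⟨φ 1, h0 1 one_ne_zero, fun x hx => ?_, ?_⟩
  · rw [hφ x hx, hfin x hx]
  · have := (hB 1 one_ne_zero).1
    rwa [div_one] at this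

end Cfsg.Agent.Lib.Helper38.Z32
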