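import Mathlib
import Cfsg.Agent.Lib.Helper38.Z32Defs

set_option autoImplicit false

/-! Rung R4: recognition of `PGL(2, F)` as a group of permutations of the projective line. -/

namespace Cfsg.Agent.Lib.Helper38.Z32

open OnePoint

/-- an element of `GL(2,F)` which fixes `∞`, `0` and `1` is a scalar matrix -/
theorem gl_fix_three {F : Type*} [Field F] [DecidableEq F] (g : GL (Fin 2) F)
    (h1 : g • (∞ : OnePoint F) = ∞) (h2 : g • ((0 : F) : OnePoint F) = ((0 : F) : OnePoint F))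
    (h3 : g • ((1 : F) : OnePoint F) = ((1 : F) : OnePoint F)) :
    g 1 0 = 0 ∧ g 0 1 = 0 ∧ g 0 0 = g 1 1 := by
  have e1 : g 1 0 = 0 := OnePoint.smul_infty_eq_self_iff.mp h1
  rw [OnePoint.smul_some_eq_ite] at h2 h3
  rw [e1] at h2 h3
  simp only [mul_zero, zero_mul, zero_add, mul_one] at h2 h3
  have hdet := g.det_ne_zero
  rw [Matrix.det_fin_two, e1, mul_zero, sub_zero] at hdet
  have h11 : g 1 1 ≠ 0 := right_ne_zero_of_mul hdet
  rw [if_neg h11] at h2 h3
  have e2 : g 0 1 = 0 := by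
    have := OnePoint.coe_injective h2
    rcases div_eq_zero_iff.mp this with h | h
    · exact h
    · exact absurd h h11
  refine ⟨e1, e2, ?_⟩
  have := OnePoint.coe_injective h3
  rw [e2, add_zero, div_eq_one_iff_eq h11] at this
  exact this

theorem gl_scalar_smul {F : Type*} [Field F] [DecidableEq F] (g : GL (Fin 2) F)
    (h : g 1 0 = 0 ∧ g 0 1 = 0 ∧ g 0 0 = g 1 1) (x : OnePoint F) : g • x = x := by
  obtain ⟨e1, e2, e3⟩ := h
  have hdet := g.det_ne_zero
  rw [Matrix.det_fin_two, e1, mul_zero, sub_zero] at hdet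
  have h11 : g 1 1 ≠ 0 := right_ne_zero_of_mul hdet
  induction x using OnePoint.rec with
  | infty => exact OnePoint.smul_infty_eq_self_iff.mpr e1
  | coe x =>
    rw [OnePoint.smul_some_eq_ite, e1, e2, e3, zero_mul, zero_add, if_neg h11, add_zero,
      mul_div_cancel_left₀ _ h11]

theorem gl_scalar_iff_center {F : Type*} [Field F] [DecidableEq F] (g : GL (Fin 2) F) :
    g ∈ Subgroup.center (GL (Fin 2) F) ↔ (g 1 0 = 0 ∧ g 0 1 = 0 ∧ g 0 0 = g 1 1) := by
  rw [Matrix.GeneralLinearGroup.center_eq_range_scalar]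
  constructor
  · rintro ⟨u, rfl⟩
    simp
  · rintro ⟨e1, e2, e3⟩
    have hdet := g.det_ne_zero
    rw [Matrix.det_fin_two, e1, mul_zero, sub_zero] at hdet
    have h11 : g 1 1 ≠ 0 := right_ne_zero_of_mul hdet
    refine ⟨Units.mk0 _ h11, ?_⟩
    ext i j
    fin_cases i <;> fin_cases j <;> simp [e1, e2, e3]

theorem pgl_recognition {F : Type*} [Field F] [DecidableEq F]
    (Γ : Subgroup (Equiv.Perm (OnePoint F)))
    (h3t : ∀ x₁ x₂ x₃ : OnePoint F, x₁ ≠ x₂ → x₁ ≠ x₃ → x₂ ≠ x₃ →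
      ∃ γ ∈ Γ, γ ∞ = x₁ ∧ γ ((0 : F) : OnePoint F) = x₂ ∧ γ ((1 : F) : OnePoint F) = x₃)
    (hgl : ∀ γ ∈ Γ, ∃ g : GL (Fin 2) F, ∀ x : OnePoint F, γ x = g • x) :
    Nonempty (Γ ≃* Matrix.ProjGenLinGroup (Fin 2) F) := by
  let Φ : GL (Fin 2) F →* Equiv.Perm (OnePoint F) := MulAction.toPermHom _ _
  have hΦ : ∀ g x, Φ g x = g • x := fun g x => rfl
  have hker : Φ.ker = Subgroup.center (GL (Fin 2) F) := by
    ext g
    rw [MonoidHom.mem_ker, gl_scalar_iff_center]
    constructor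
    · intro h
      have h' : ∀ x, g • x = x := fun x => by rw [← hΦ, h]; rfl
      exact gl_fix_three g (h' _) (h' _) (h' _)
    · intro h
      ext x
      rw [hΦ, gl_scalar_smul g h]
      rfl
  have hrange : Φ.range = Γ := by
    apply le_antisymm
    · rintro _ ⟨g, rfl⟩
      have n1 : (∞ : OnePoint F) ≠ ((0 : F) : OnePoint F) := OnePoint.infty_ne_coe 0
      have n2 : (∞ : OnePoint F) ≠ ((1 : F) : OnePoint F) := OnePoint.infty_ne_coe 1
      have n3 : ((0 : F) : OnePoint F) ≠ ((1 : F) : OnePoint F) := by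
        intro h
        exact zero_ne_one (OnePoint.coe_injective h)
      obtain ⟨γ, hγ, a1, a2, a3⟩ := h3t (g • ∞) (g • ((0 : F) : OnePoint F))
        (g • ((1 : F) : OnePoint F)) (fun h => n1 (MulAction.injective g h))
        (fun h => n2 (MulAction.injective g h)) (fun h => n3 (MulAction.injective g h))
      obtain ⟨g', hg'⟩ := hgl γ hγ
      have hfix : ∀ x, γ x = g • x → (g'⁻¹ * g) • x = x := by
        intro x hx
        rw [mul_smul, ← hx, hg', inv_smul_smul]
      have hs := gl_fix_three (g'⁻¹ * g) (hfix _ a1) (hfix _ a2) (hfix _ a3)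
      have : Φ g = γ := by
        ext x
        rw [hΦ, hg']
        have := gl_scalar_smul _ hs x
        rw [mul_smul, inv_smul_eq_iff] at this
        exact this
      rw [this]
      exact hγ
    · intro γ hγ
      obtain ⟨g, hg⟩ := hgl γ hγ
      exact ⟨g, by ext x; rw [hΦ, hg]⟩
  have e1 : (GL (Fin 2) F ⧸ Φ.ker) ≃* Φ.range := QuotientGroup.quotientKerEquivRange Φ
  have e2 : (GL (Fin 2) F ⧸ Φ.ker) ≃* (GL (Fin 2) F ⧸ Subgroup.center (GL (Fin 2) F)) :=
    QuotientGroup.quotientMulEquivOfEq hker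
  have e3 : Φ.range ≃* Γ := MulEquiv.subgroupCongr hrange
  exact ⟨(e3.symm.trans e1.symm).trans e2⟩

end Cfsg.Agent.Lib.Helper38.Z32
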