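import Mathlib
import Cfsg.Agent.Lib.Helper38.Z32Defs
import Cfsg.Agent.Lib.Helper38.Z32R3
import Cfsg.Agent.Lib.Helper38.Z32R4

set_option autoImplicit false

/-! Rung R5: a group as in `Conc` which contains all multiplications is `PGL(2, F)`. -/

namespace Cfsg.Agent.Lib.Helper38.Z32

open OnePoint

theorem Conc.exists_one {F : Type*} [Field F] {Γ : Subgroup (Equiv.Perm (OnePoint F))}
    (h : Conc F Γ) (x : OnePoint F) : ∃ γ ∈ Γ, γ ∞ = x := by
  induction x using OnePoint.rec with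
  | infty => exact ⟨1, Γ.one_mem, rfl⟩
  | coe a =>
    obtain ⟨δ, hδ, hδ1⟩ := h.moves
    obtain ⟨c, hc⟩ := OnePoint.ne_infty_iff_exists.mp hδ1
    obtain ⟨t, ht, -, ht2⟩ := h.transl (a - c)
    refine ⟨t * δ, Γ.mul_mem ht hδ, ?_⟩
    rw [Equiv.Perm.mul_apply, ← hc, ht2]
    congr 1
    ring

theorem Conc.exists_two {F : Type*} [Field F] {Γ : Subgroup (Equiv.Perm (OnePoint F))}
    (h : Conc F Γ) (x y : OnePoint F) (hxy : x ≠ y) :
    ∃ γ ∈ Γ, γ ∞ = x ∧ γ ((0 : F) : OnePoint F) = y := by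
  obtain ⟨δ, hδ, hδ1⟩ := h.exists_one x
  have hne : δ⁻¹ y ≠ ∞ := by
    intro h1
    rw [Equiv.Perm.inv_eq_iff_eq, hδ1] at h1
    exact hxy h1.symm
  obtain ⟨b, hb⟩ := OnePoint.ne_infty_iff_exists.mp hne
  obtain ⟨t, ht, ht1, ht2⟩ := h.transl b
  refine ⟨δ * t, Γ.mul_mem hδ ht, ?_, ?_⟩
  · rw [Equiv.Perm.mul_apply, ht1, hδ1]
  · rw [Equiv.Perm.mul_apply, ht2, mul_zero, zero_add, hb]
    exact Equiv.apply_symm_apply δ y

theorem aff_mem_range {F : Type*} [Field F] [DecidableEq F] (γ : Equiv.Perm (OnePoint F))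
    (k c : F) (hk : k ≠ 0) (h : IsAff γ k c) :
    γ ∈ (MulAction.toPermHom (GL (Fin 2) F) (OnePoint F)).range := by
  refine ⟨Matrix.GeneralLinearGroup.mkOfDetNeZero !![k, c; 0, 1] (by simpa using hk), ?_⟩
  ext x
  rw [MulAction.toPermHom_apply, MulAction.toPerm_apply]
  induction x using OnePoint.rec with
  | infty =>
    rw [h.1]
    exact OnePoint.smul_infty_eq_self_iff.mpr (by simp [Matrix.GeneralLinearGroup.mkOfDetNeZero])
  | coe x =>
    rw [h.2, OnePoint.smul_some_eq_ite]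
    simp [Matrix.GeneralLinearGroup.mkOfDetNeZero]

theorem inv_mem_range {F : Type*} [Field F] [DecidableEq F] (w : Equiv.Perm (OnePoint F))
    (s : F) (hs : s ≠ 0) (hw1 : w ∞ = ((0 : F) : OnePoint F))
    (hw2 : w ((0 : F) : OnePoint F) = ∞)
    (h : ∀ x : F, x ≠ 0 → w (x : OnePoint F) = ((s / x : F) : OnePoint F)) :
    w ∈ (MulAction.toPermHom (GL (Fin 2) F) (OnePoint F)).range := by
  refine ⟨Matrix.GeneralLinearGroup.mkOfDetNeZero !![0, s; 1, 0] (by simpa using hs), ?_⟩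
  ext x
  rw [MulAction.toPermHom_apply, MulAction.toPerm_apply]
  induction x using OnePoint.rec with
  | infty =>
    rw [hw1, OnePoint.smul_infty_eq_ite]
    simp [Matrix.GeneralLinearGroup.mkOfDetNeZero]
  | coe x =>
    rw [OnePoint.smul_some_eq_ite]
    by_cases hx : x = 0
    · subst hx
      rw [hw2]
      simp [Matrix.GeneralLinearGroup.mkOfDetNeZero]
    · rw [h x hx]
      simp [Matrix.GeneralLinearGroup.mkOfDetNeZero, hx]

theorem pgl_of_conc {F : Type*} [Field F] (h2 : (2 : F) ≠ 0)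
    (Γ : Subgroup (Equiv.Perm (OnePoint F))) (hΓ : Conc F Γ)
    (hmul : ∀ k : F, k ≠ 0 → ∃ γ ∈ Γ, IsAff γ k 0) :
    Nonempty (Γ ≃* Matrix.ProjGenLinGroup (Fin 2) F) := by
  classical
  -- an involution which swaps `0` and `∞`
  obtain ⟨n, hn, hn1, hn2⟩ := hmul (-1) (neg_ne_zero.mpr one_ne_zero)
  have h1m : ((1 : F) : OnePoint F) ≠ ((-1 : F) : OnePoint F) := by
    intro h
    apply h2
    have := OnePoint.coe_injective h
    linear_combination this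
  obtain ⟨δ, hδ, hδ1, hδ2⟩ := hΓ.exists_two _ _ h1m
  have hnn : n * n = 1 := by
    ext x
    rw [Equiv.Perm.mul_apply]
    induction x using OnePoint.rec with
    | infty => rw [hn1, hn1]; rfl
    | coe x =>
      rw [hn2, hn2]
      simp
  have hw : δ⁻¹ * n * δ ∈ Γ := Γ.mul_mem (Γ.mul_mem (Γ.inv_mem hδ) hn) hδ
  have hw1 : (δ⁻¹ * n * δ) ∞ = ((0 : F) : OnePoint F) := by
    rw [Equiv.Perm.mul_apply, Equiv.Perm.mul_apply, hδ1, hn2, Equiv.Perm.inv_eq_iff_eq, hδ2]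
    congr 1
    ring
  have hw2 : (δ⁻¹ * n * δ) ((0 : F) : OnePoint F) = ∞ := by
    rw [Equiv.Perm.mul_apply, Equiv.Perm.mul_apply, hδ2, hn2, Equiv.Perm.inv_eq_iff_eq, hδ1]
    congr 1
    ring
  have hww : (δ⁻¹ * n * δ) * (δ⁻¹ * n * δ) = 1 := by
    have : (δ⁻¹ * n * δ) * (δ⁻¹ * n * δ) = δ⁻¹ * (n * n) * δ := by group
    rw [this, hnn]
    group
  obtain ⟨s, hs, hws, -⟩ := swap_eq_inv h2 Γ hΓ ⟨n, hn, hn1, hn2⟩ _ hw hw1 hw2 hww
  set w := δ⁻¹ * n * δ with hwdef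
  have hwr := inv_mem_range w s hs hw1 hw2 hws
  apply pgl_recognition Γ
  · intro x₁ x₂ x₃ h12 h13 h23
    obtain ⟨γ, hγ, hγ1, hγ2⟩ := hΓ.exists_two x₁ x₂ h12
    have hne : γ⁻¹ x₃ ≠ ∞ := by
      intro h1
      rw [Equiv.Perm.inv_eq_iff_eq, hγ1] at h1
      exact h13 h1.symm
    obtain ⟨k, hk⟩ := OnePoint.ne_infty_iff_exists.mp hne
    have hk0 : k ≠ 0 := by
      rintro rfl
      rw [eq_comm, Equiv.Perm.inv_eq_iff_eq, hγ2] at hk
      exact h23 hk.symm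
    obtain ⟨m, hm, hm1, hm2⟩ := hmul k hk0
    refine ⟨γ * m, Γ.mul_mem hγ hm, ?_, ?_, ?_⟩
    · rw [Equiv.Perm.mul_apply, hm1, hγ1]
    · rw [Equiv.Perm.mul_apply, hm2, mul_zero, zero_add, hγ2]
    · rw [Equiv.Perm.mul_apply, hm2, mul_one, add_zero, hk]
      exact Equiv.apply_symm_apply γ x₃
  · have key : ∀ γ ∈ Γ, γ ∈ (MulAction.toPermHom (GL (Fin 2) F) (OnePoint F)).range := by
      intro γ hγ
      by_cases hinf : γ ∞ = ∞
      · obtain ⟨k, c, hk, hkc⟩ := hΓ.aff γ hγ hinf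
        exact aff_mem_range γ k c hk hkc
      · obtain ⟨a, ha⟩ := OnePoint.ne_infty_iff_exists.mp hinf
        obtain ⟨t, ht, ht1, ht2⟩ := hΓ.transl (-a)
        have hm : w * t * γ ∈ Γ := Γ.mul_mem (Γ.mul_mem hw ht) hγ
        have hfix : (w * t * γ) ∞ = ∞ := by
          rw [Equiv.Perm.mul_apply, Equiv.Perm.mul_apply, ← ha, ht2, one_mul, add_neg_cancel, hw2]
        obtain ⟨k, c, hk, hkc⟩ := hΓ.aff _ hm hfix
        have h1 := aff_mem_range _ k c hk hkc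
        have h3 := aff_mem_range t 1 (-a) one_ne_zero ⟨ht1, ht2⟩
        have : γ = (w * t)⁻¹ * (w * t * γ) := by group
        rw [this]
        exact Subgroup.mul_mem _ (Subgroup.inv_mem _ (Subgroup.mul_mem _ hwr h3)) h1
    intro γ hγ
    obtain ⟨g, hg⟩ := key γ hγ
    exact ⟨g, fun x => by rw [← hg]; rfl⟩

end Cfsg.Agent.Lib.Helper38.Z32
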