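import Mathlib
import Cfsg.Agent.Lib.Helper7.SL2Center
import Cfsg.Agent.Lib.Helper6.SLEquiv

set_option autoImplicit false

/-! Rung R7: `PSL(2, K)` of the order of `PSL(2, p)` is `PSL(2, p)`. -/

namespace Cfsg.Agent.Lib.Helper38.Z32

theorem psl_prime_of_card {G K : Type*} [Group G] [Field K] [Fintype K] (hK : ringChar K ≠ 2)
    {p : ℕ} [hp : Fact p.Prime] (hG : 2 * Nat.card G = (p + 1) * p * (p - 1))
    (e : G ≃* Matrix.ProjectiveSpecialLinearGroup (Fin 2) K) :
    Nonempty (G ≃* Matrix.ProjectiveSpecialLinearGroup (Fin 2) (ZMod p)) := by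
  have h2 : (2 : K) ≠ 0 := by
    intro h
    apply hK
    have h3 : ((2 : ℕ) : K) = 0 := by exact_mod_cast h
    have h4 := ringChar.dvd h3
    rcases (Nat.dvd_prime Nat.prime_two).mp h4 with h5 | h5
    · exfalso
      have := CharP.ringChar_ne_one (R := K)
      exact this h5
    · exact h5
  have hc := Cfsg.Agent.Lib.Helper7.card_PSL2 (F := K) h2
  rw [← Nat.card_congr e.toEquiv] at hc
  obtain ⟨r, hr⟩ : ∃ r, r = Fintype.card K := ⟨_, rfl⟩
  rw [← hr] at hc
  have hr1 : 1 < r := by rw [hr]; exact Fintype.one_lt_card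
  have hp1 : 1 < p := hp.out.one_lt
  have heq : r * (r ^ 2 - 1) = (p + 1) * p * (p - 1) := by rw [← hc, ← hG]; ring
  obtain ⟨a, rfl⟩ : ∃ a, r = a + 1 := ⟨r - 1, by omega⟩
  obtain ⟨b, rfl⟩ : ∃ b, p = b + 1 := ⟨p - 1, by omega⟩
  have e1 : (a + 1) ^ 2 - 1 = a * (a + 2) := by
    have : (a + 1) ^ 2 = a * (a + 2) + 1 := by ring
    omega
  have e2 : b + 1 - 1 = b := by omega
  rw [e1, e2] at heq
  have hab : a = b := by
    rcases lt_trichotomy a b with h | h | h
    · exfalso
      have h1 : (a + 1) * (a * (a + 2)) < (b + 1 + 1) * (b + 1) * b := by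
        have : (a + 1) * (a * (a + 2)) < (b + 1) * (b * (b + 2)) := by
          apply Nat.mul_lt_mul'' (by omega)
          apply Nat.mul_lt_mul'' h (by omega)
        calc _ < _ := this
          _ = _ := by ring
      omega
    · exact h
    · exfalso
      have h1 : (b + 1 + 1) * (b + 1) * b < (a + 1) * (a * (a + 2)) := by
        have : (b + 1) * (b * (b + 2)) < (a + 1) * (a * (a + 2)) := by
          apply Nat.mul_lt_mul'' (by omega)
          apply Nat.mul_lt_mul'' h (by omega)
        calc _ = _ := by ring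
          _ < _ := this
      omega
  subst hab
  exact ⟨e.trans (Cfsg.Agent.Lib.Helper6.pslEquiv (ZMod.ringEquivOfPrime K hp.out hr.symm).symm)⟩

end Cfsg.Agent.Lib.Helper38.Z32
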