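import Mathlib

set_option autoImplicit false

/-! Rung R9: the order of a sharply 3-transitive group. -/

namespace Cfsg.Agent.Lib.Helper38.Z32

theorem card_of_sharp3 {G Ω : Type*} [Group G] [Finite G] [MulAction G Ω] [Finite Ω]
    (h3 : MulAction.IsMultiplyPretransitive G Ω 3)
    (hs : ∀ t : Fin 3 ↪ Ω, MulAction.stabilizer G t = ⊥) (h : 3 ≤ Nat.card Ω) :
    Nat.card G = Nat.card Ω * (Nat.card Ω - 1) * (Nat.card Ω - 2) := by
  classical
  have : Fintype Ω := Fintype.ofFinite Ω
  have hne : Nonempty (Fin 3 ↪ Ω) := by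
    rw [Function.Embedding.nonempty_iff_card_le, Fintype.card_fin, ← Nat.card_eq_fintype_card]
    exact h
  obtain ⟨t₀⟩ := hne
  have hbij : Function.Bijective (fun g : G => g • t₀) := by
    constructor
    · intro g g' hgg
      have h1 : g'⁻¹ * g ∈ MulAction.stabilizer G t₀ := by
        rw [MulAction.mem_stabilizer_iff, mul_smul]
        show g'⁻¹ • (g • t₀) = t₀
        rw [show g • t₀ = g' • t₀ from hgg, inv_smul_smul]
      rw [hs, Subgroup.mem_bot, inv_mul_eq_one] at h1
      exact h1.symm
    · intro t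
      exact MulAction.exists_smul_eq G t₀ t
  rw [Nat.card_congr (Equiv.ofBijective _ hbij), Nat.card_eq_fintype_card,
    Fintype.card_embedding_eq, Fintype.card_fin, ← Nat.card_eq_fintype_card]
  simp only [Nat.descFactorial]
  rw [Nat.sub_zero]
  ring

end Cfsg.Agent.Lib.Helper38.Z32
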