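import Mathlib
import Cfsg.Agent.Lib.Helper61.ZassDefs

set_option autoImplicit false
set_option linter.unusedVariables false

/-! In a group with a free representation an element of prime order which normalises a cyclic
subgroup centralises it. -/

namespace Cfsg.Agent.Lib.Helper38.Z58

open Subgroup Cfsg.Agent.Lib.Helper61.Zass

theorem conj_pow_iter {G : Type*} [Group G] (x y : G) (r : ℕ) (h : x⁻¹ * y * x = y ^ r) (i : ℕ) :
    (x ^ i)⁻¹ * y * x ^ i = y ^ (r ^ i) := by
  induction i with
  | zero => simp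
  | succ i ih =>
    have h1 : (x ^ (i + 1))⁻¹ * y * x ^ (i + 1) = x⁻¹ * ((x ^ i)⁻¹ * y * x ^ i) * x := by
      rw [pow_succ, mul_inv_rev]
      simp only [mul_assoc]
    have h2 : ∀ j : ℕ, x⁻¹ * y ^ j * x = (x⁻¹ * y * x) ^ j := by
      intro j
      have := conj_pow (a := x⁻¹) (b := y) (i := j)
      rw [inv_inv] at this
      exact this.symm
    rw [h1, ih, h2, h, ← pow_mul, pow_succ, mul_comm]

theorem commute_of_pow_commute {G : Type*} [Group G] (a b : G) (q : ℕ) (hq : q.Prime)
    (ha : orderOf a = q) (d : ℕ) (hd0 : 0 < d) (hdq : d < q) (hc : Commute (a ^ d) b) :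
    Commute a b := by
  have hcop : Nat.Coprime d q := by
    apply Nat.Coprime.symm
    rw [Nat.Prime.coprime_iff_not_dvd hq]
    intro h
    exact absurd (Nat.le_of_dvd hd0 h) (by omega)
  obtain ⟨m, -, hm⟩ := Nat.exists_mul_mod_eq_one_of_coprime hcop hq.one_lt
  have h1 : (a ^ d) ^ m = a := by
    rw [← pow_mul, ← pow_mod_orderOf, ha, hm, pow_one]
  rw [← h1]
  exact hc.pow_left m

theorem D4 {H : Type*} [Group H] (h : HasFreeRep H) {q : ℕ} (hq : q.Prime) (a b : H)
    (ha : orderOf a = q) (k : ℕ) (hn : a⁻¹ * b * a = b ^ k) : Commute a b := by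
  obtain ⟨K, _, _, V, _, _, _, _, ρ, hfree⟩ := h
  by_contra hnc
  obtain ⟨l, hl⟩ := Module.End.exists_eigenvalue (ρ b)
  obtain ⟨v, hv⟩ := hl.exists_hasEigenvector
  have hv0 : v ≠ 0 := hv.2
  have hbv : ρ b v = l • v := hv.apply_eq_smul
  have hpow : ∀ j : ℕ, ρ (b ^ j) v = l ^ j • v := by
    intro j
    induction j with
    | zero => simp
    | succ j ih =>
      rw [pow_succ, map_mul, Module.End.mul_apply, hbv, map_smul, ih, smul_smul, pow_succ, mul_comm]
  have hinj : ∀ g g' : H, ρ g v = ρ g' v → g = g' := by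
    intro g g' hgg
    by_contra hne
    have h1 : g'⁻¹ * g ≠ 1 := by
      intro h
      apply hne
      rw [inv_mul_eq_one] at h
      exact h.symm
    apply hv0
    apply hfree _ h1 v
    rw [map_mul, Module.End.mul_apply, hgg, ← Module.End.mul_apply, ← map_mul, inv_mul_cancel,
      map_one, Module.End.one_apply]
  have hconj := conj_pow_iter a b k hn
  have heig : ∀ i : ℕ, ρ b (ρ (a ^ i) v) = l ^ (k ^ i) • ρ (a ^ i) v := by
    intro i
    rw [← map_smul, ← hpow, ← hconj i, ← Module.End.mul_apply, ← Module.End.mul_apply, ← map_mul,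
      ← map_mul]
    congr 2
    group
  have hne0 : ∀ i : ℕ, ρ (a ^ i) v ≠ 0 := by
    intro i h0
    apply hv0
    have : ρ ((a ^ i)⁻¹) (ρ (a ^ i) v) = v := by
      rw [← Module.End.mul_apply, ← map_mul, inv_mul_cancel, map_one, Module.End.one_apply]
    rw [← this, h0, map_zero]
  have hlt : ∀ i j : ℕ, i < j → j < q → l ^ (k ^ i) ≠ l ^ (k ^ j) := by
    intro i j hij hjq heq
    apply hnc
    apply commute_of_pow_commute a b q hq ha (j - i) (by omega) (by omega)
    have h1 : b ^ (k ^ i) = b ^ (k ^ j) := by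
      apply hinj
      rw [hpow, hpow, heq]
    rw [← hconj i, ← hconj j] at h1
    have h2 : a ^ j = a ^ (j - i) * a ^ i := by
      rw [← pow_add]; congr 1; omega
    rw [h2, mul_inv_rev] at h1
    show a ^ (j - i) * b = b * a ^ (j - i)
    have h3 : b = (a ^ (j - i))⁻¹ * b * a ^ (j - i) := by
      have := congrArg (fun t => a ^ i * t * (a ^ i)⁻¹) h1
      simp only [mul_assoc, mul_inv_cancel_left, mul_inv_cancel, mul_one] at this
      simpa [mul_assoc] using this
    calc a ^ (j - i) * b = a ^ (j - i) * ((a ^ (j - i))⁻¹ * b * a ^ (j - i)) := by rw [← h3]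
      _ = b * a ^ (j - i) := by simp only [mul_assoc, mul_inv_cancel_left]
  have hμ : Function.Injective (fun i : Fin q => l ^ (k ^ (i : ℕ))) := by
    intro i j hij
    by_contra hne
    rcases lt_or_gt_of_ne (fun h => hne (Fin.ext h) : (i : ℕ) ≠ j) with h | h
    · exact hlt i j h j.2 hij
    · exact hlt j i h i.2 hij.symm
  have hli := Module.End.eigenvectors_linearIndependent' (ρ b) (fun i : Fin q => l ^ (k ^ (i : ℕ)))
    hμ (fun i : Fin q => ρ (a ^ (i : ℕ)) v)
    (fun i => ⟨Module.End.mem_eigenspace_iff.mpr (heig i), hne0 i⟩)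
  have ha1 : a ≠ 1 := by
    rintro rfl
    rw [orderOf_one] at ha
    exact hq.one_lt.ne ha
  have hsum : ρ a (∑ i ∈ Finset.range q, ρ (a ^ i) v) = ∑ i ∈ Finset.range q, ρ (a ^ i) v := by
    rw [map_sum]
    have h1 : ∀ i : ℕ, ρ a (ρ (a ^ i) v) = ρ (a ^ (i + 1)) v := by
      intro i
      rw [← Module.End.mul_apply, ← map_mul, pow_succ']
    simp only [h1]
    have h2 := Finset.sum_range_succ (fun i => ρ (a ^ i) v) q
    have h3 := Finset.sum_range_succ' (fun i => ρ (a ^ i) v) q
    have h4 : ρ (a ^ q) v = ρ (a ^ 0) v := by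
      rw [← ha, pow_orderOf_eq_one, pow_zero]
    rw [h2, h4] at h3
    exact (add_right_cancel h3).symm
  have hzero := hfree a ha1 _ hsum
  rw [← Fin.sum_univ_eq_sum_range (fun i => ρ (a ^ i) v) q] at hzero
  have := Fintype.linearIndependent_iff.mp hli (fun _ => 1) (by simpa using hzero) ⟨0, hq.pos⟩
  exact one_ne_zero this

end Cfsg.Agent.Lib.Helper38.Z58
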