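import Mathlib

set_option autoImplicit false
set_option linter.unusedVariables false

/-! Arithmetic lemma and the order bound for metacyclic presentations. -/

namespace Cfsg.Agent.Lib.Helper38.Z58

open Subgroup

theorem pow_div_rad_eq_one {M : Type*} [Monoid M] (u : M) (n : ℕ) (hn : 0 < n) (h1 : u ^ n = 1)
    (h : ∀ q : ℕ, q.Prime → q ∣ n → u ^ (n / q) = 1) :
    u ^ (n / ∏ p ∈ n.primeFactors, p) = 1 := by
  have key : ∀ T : Finset ℕ, T ⊆ n.primeFactors →
      (∏ p ∈ T, p) ∣ n ∧ u ^ (n / ∏ p ∈ T, p) = 1 := by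
    intro T
    induction T using Finset.induction_on with
    | empty => intro _; simpa using h1
    | insert q T hqT ih =>
      intro hsub
      obtain ⟨ht, hu⟩ := ih (fun x hx => hsub (Finset.mem_insert_of_mem hx))
      have hq : q ∈ n.primeFactors := hsub (Finset.mem_insert_self q T)
      have hqp : q.Prime := Nat.prime_of_mem_primeFactors hq
      have hqn : q ∣ n := Nat.dvd_of_mem_primeFactors hq
      have hcop : Nat.Coprime q (∏ p ∈ T, p) := by
        apply Nat.Coprime.prod_right
        intro i hi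
        have hip : i.Prime := Nat.prime_of_mem_primeFactors (hsub (Finset.mem_insert_of_mem hi))
        rw [Nat.coprime_primes hqp hip]
        rintro rfl
        exact hqT hi
      rw [Finset.prod_insert hqT]
      have hdvd : q * ∏ p ∈ T, p ∣ n := Nat.Coprime.mul_dvd_of_dvd_of_dvd hcop hqn ht
      refine ⟨hdvd, ?_⟩
      obtain ⟨w, hw⟩ := hdvd
      set t := ∏ p ∈ T, p with htdef
      have ht0 : 0 < t := Nat.pos_of_dvd_of_pos ht hn
      have e1 : n / t = q * w := by
        rw [hw]
        rw [show q * t * w = (q * w) * t by ring]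
        exact Nat.mul_div_cancel _ ht0
      have e2 : n / q = t * w := by
        rw [hw, mul_assoc]
        exact Nat.mul_div_cancel_left _ hqp.pos
      have e3 : n / (q * t) = w := by
        rw [hw]
        exact Nat.mul_div_cancel_left _ (Nat.mul_pos hqp.pos ht0)
      have h2 := h q hqp hqn
      rw [e1] at hu
      rw [e2] at h2
      have h3 := pow_gcd_eq_one.mpr ⟨hu, h2⟩
      rw [Nat.gcd_mul_right, hcop.gcd_eq_one, one_mul] at h3
      rw [e3]; exact h3
  exact (key _ (Finset.Subset.refl _)).2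

theorem card_le_of_metacyclic {P : Type*} [Group P] (X Y : P) (n m r : ℕ) (hn : 0 < n)
    (hm : 0 < m) (hgen : closure ({X, Y} : Set P) = ⊤) (hX : X ^ n = 1) (hY : Y ^ m = 1)
    (hrel : X⁻¹ * Y * X = Y ^ r) : Finite P ∧ Nat.card P ≤ n * m := by
  have hXinv : ∀ a ∈ zpowers Y, X⁻¹ * a * X ∈ zpowers Y := by
    intro a ha
    obtain ⟨k, rfl⟩ := mem_zpowers_iff.mp ha
    have h1 : X⁻¹ * Y ^ k * X = (X⁻¹ * Y * X) ^ k := by
      have := conj_zpow (a := X⁻¹) (b := Y) (i := k)
      rw [inv_inv] at this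
      exact this.symm
    rw [h1, hrel]
    exact zpow_mem (pow_mem (mem_zpowers Y) r) k
  have hiter : ∀ i : ℕ, ∀ a ∈ zpowers Y, (X ^ i)⁻¹ * a * X ^ i ∈ zpowers Y := by
    intro i
    induction i with
    | zero => intro a ha; simpa using ha
    | succ i ih =>
      intro a ha
      have h1 : (X ^ (i + 1))⁻¹ * a * X ^ (i + 1) = X⁻¹ * ((X ^ i)⁻¹ * a * X ^ i) * X := by
        rw [pow_succ, mul_inv_rev]
        simp only [mul_assoc]
      rw [h1]
      exact hXinv _ (ih a ha)
  have hXc : ∀ a ∈ zpowers Y, X * a * X⁻¹ ∈ zpowers Y := by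
    intro a ha
    have h1 : (X ^ (n - 1))⁻¹ = X := by
      rw [inv_eq_iff_mul_eq_one, ← pow_succ]
      rw [show n - 1 + 1 = n by omega, hX]
    have h2 := hiter (n - 1) a ha
    rw [h1] at h2
    have h3 : X ^ (n - 1) = X⁻¹ := inv_eq_iff_eq_inv.mp h1
    rwa [h3] at h2
  have hnorm : (zpowers Y).Normal := by
    rw [← normalizer_eq_top_iff, eq_top_iff, ← hgen, closure_le]
    intro g hg
    rcases hg with rfl | rfl
    · rw [SetLike.mem_coe, mem_normalizer_iff]
      intro a
      constructor
      · exact hXc a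
      · intro ha
        have := hXinv _ ha
        simpa [mul_assoc] using this
    · exact le_normalizer (mem_zpowers _)
  have htop : zpowers (QuotientGroup.mk' (zpowers Y) X) = ⊤ := by
    rw [eq_top_iff, ← (MonoidHom.range_eq_top.mpr (QuotientGroup.mk'_surjective (zpowers Y))),
      MonoidHom.range_eq_map, ← hgen, MonoidHom.map_closure, closure_le]
    rintro _ ⟨g, hg, rfl⟩
    rcases hg with rfl | rfl
    · exact mem_zpowers _
    · have : QuotientGroup.mk' (zpowers g) g = 1 :=
        (QuotientGroup.eq_one_iff g).mpr (mem_zpowers g)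
      rw [this]; exact one_mem _
  have hXq : (QuotientGroup.mk' (zpowers Y) X) ^ n = 1 := by rw [← map_pow, hX, map_one]
  have hc1 : Nat.card (P ⧸ zpowers Y) = orderOf (QuotientGroup.mk' (zpowers Y) X) := by
    rw [← Nat.card_zpowers, htop, card_top]
  have hc2 : Nat.card (zpowers Y) = orderOf Y := Nat.card_zpowers Y
  have ho1 : 0 < orderOf (QuotientGroup.mk' (zpowers Y) X) :=
    orderOf_pos_iff.mpr (isOfFinOrder_iff_pow_eq_one.mpr ⟨n, hn, hXq⟩)
  have ho2 : 0 < orderOf Y := orderOf_pos_iff.mpr (isOfFinOrder_iff_pow_eq_one.mpr ⟨m, hm, hY⟩)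
  have hl1 : orderOf (QuotientGroup.mk' (zpowers Y) X) ≤ n := orderOf_le_of_pow_eq_one hn hXq
  have hl2 : orderOf Y ≤ m := orderOf_le_of_pow_eq_one hm hY
  have hcard := card_eq_card_quotient_mul_card_subgroup (zpowers Y)
  rw [hc1, hc2] at hcard
  constructor
  · apply Nat.finite_of_card_ne_zero
    rw [hcard]
    exact (Nat.mul_pos ho1 ho2).ne'
  · rw [hcard]
    exact Nat.mul_le_mul hl1 hl2

/-- recognition of a metacyclic presentation -/
theorem presented_iso {G : Type*} [Group G] [Finite G] (x y : G) (n m r : ℕ)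
    (hgen : closure ({x, y} : Set G) = ⊤) (hx : orderOf x = n) (hy : orderOf y = m)
    (hrel : x⁻¹ * y * x = y ^ r) (hcop : Nat.Coprime n m) :
    Nonempty (G ≃* PresentedGroup
          ({FreeGroup.of (0 : Fin 2) ^ n, FreeGroup.of (1 : Fin 2) ^ m,
            (FreeGroup.of (0 : Fin 2))⁻¹ * FreeGroup.of 1 * FreeGroup.of 0 *
              (FreeGroup.of (1 : Fin 2) ^ r)⁻¹} : Set (FreeGroup (Fin 2)))) := by
  set rels : Set (FreeGroup (Fin 2)) := {FreeGroup.of (0 : Fin 2) ^ n, FreeGroup.of (1 : Fin 2) ^ m,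
            (FreeGroup.of (0 : Fin 2))⁻¹ * FreeGroup.of 1 * FreeGroup.of 0 *
              (FreeGroup.of (1 : Fin 2) ^ r)⁻¹} with hrels
  have hn : 0 < n := hx ▸ orderOf_pos x
  have hm : 0 < m := hy ▸ orderOf_pos y
  have hlift : ∀ w ∈ rels, FreeGroup.lift ![x, y] w = 1 := by
    intro w hw
    rcases hw with rfl | rfl | rfl
    · simp [← hx, pow_orderOf_eq_one]
    · simp [← hy, pow_orderOf_eq_one]
    · simp [hrel]
  let φ : PresentedGroup rels →* G := PresentedGroup.toGroup hlift
  have hφ0 : φ (PresentedGroup.of 0) = x := PresentedGroup.toGroup.of hlift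
  have hφ1 : φ (PresentedGroup.of 1) = y := PresentedGroup.toGroup.of hlift
  have hsurj : Function.Surjective φ := by
    rw [← MonoidHom.range_eq_top, eq_top_iff, ← hgen, closure_le]
    intro g hg
    rcases hg with rfl | rfl
    · exact ⟨_, hφ0⟩
    · exact ⟨_, hφ1⟩
  have hP := card_le_of_metacyclic (P := PresentedGroup rels) (PresentedGroup.of 0)
    (PresentedGroup.of 1) n m r hn hm
    (by
      rw [← PresentedGroup.closure_range_of rels]
      congr 1
      ext g
      constructor
      · rintro (rfl | rfl)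
        · exact ⟨0, rfl⟩
        · exact ⟨1, rfl⟩
      · rintro ⟨i, rfl⟩
        fin_cases i
        · left; rfl
        · right; rfl)
    (by
      have := PresentedGroup.one_of_mem (rels := rels) (x := FreeGroup.of (0 : Fin 2) ^ n)
        (by left; rfl)
      rwa [map_pow] at this)
    (by
      have := PresentedGroup.one_of_mem (rels := rels) (x := FreeGroup.of (1 : Fin 2) ^ m)
        (by right; left; rfl)
      rwa [map_pow] at this)
    (by
      have := PresentedGroup.one_of_mem (rels := rels)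
        (x := (FreeGroup.of (0 : Fin 2))⁻¹ * FreeGroup.of 1 * FreeGroup.of 0 *
              (FreeGroup.of (1 : Fin 2) ^ r)⁻¹)
        (by right; right; rfl)
      rw [map_mul, map_inv, mul_inv_eq_one, map_mul, map_mul, map_inv, map_pow] at this
      exact this)
  obtain ⟨hfin, hle⟩ := hP
  have hge : n * m ≤ Nat.card G := by
    apply Nat.le_of_dvd Nat.card_pos
    apply Nat.Coprime.mul_dvd_of_dvd_of_dvd hcop
    · rw [← hx]; exact orderOf_dvd_natCard x
    · rw [← hy]; exact orderOf_dvd_natCard y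
  have hbij := hsurj.bijective_of_nat_card_le (hle.trans hge)
  exact ⟨(MulEquiv.ofBijective φ hbij).symm⟩

end Cfsg.Agent.Lib.Helper38.Z58
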