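import Mathlib
import Cfsg.Agent.Lib.Helper61.ZassDefs
import Cfsg.Agent.Lib.Helper38.ZassB
import Cfsg.Agent.Lib.Helper38.ZassD

set_option autoImplicit false

/-! Definitions and first lemmas for the ladder towards the quotient theorem for Frobenius
complements (`G/N` trivial, `V₄`, `A₄`, `S₄`, `A₅`, `S₅`). -/

namespace Cfsg.Agent.Lib.Helper38.Z91

open Cfsg.Agent.Lib.Helper61.Zass Cfsg.Agent.Lib.Helper38.Zass

/-- `G/N` is trivial or one of `V₄`, `A₄`, `S₄`, `A₅`, `S₅`. -/
def InList {G : Type*} [Group G] (N : Subgroup G) : Prop :=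
  N = ⊤ ∨
  (∃ f : G →* DihedralGroup 2, Function.Surjective f ∧ f.ker = N) ∨
  (∃ f : G →* alternatingGroup (Fin 4), Function.Surjective f ∧ f.ker = N) ∨
  (∃ f : G →* Equiv.Perm (Fin 4), Function.Surjective f ∧ f.ker = N) ∨
  (∃ f : G →* alternatingGroup (Fin 5), Function.Surjective f ∧ f.ker = N) ∨
  (∃ f : G →* Equiv.Perm (Fin 5), Function.Surjective f ∧ f.ker = N)

/-- Sylow `2`-subgroups of a group with a free representation are generated by two elements. -/
theorem two_gen_sylow {G : Type*} [Group G] [Finite G] (hFR : HasFreeRep G) (P : Sylow 2 G) :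
    ∃ x y : P, Subgroup.closure ({x, y} : Set P) = ⊤ := by
  have : Fact (Nat.Prime 2) := ⟨Nat.prime_two⟩
  rcases D3 hFR 2 P with hc | ⟨n, ⟨e⟩⟩
  · have : IsCyclic (⊤ : Subgroup P) :=
      isCyclic_of_injective (⊤ : Subgroup P).subtype (Subgroup.subtype_injective _)
    exact two_gen_of_cyclic_index (⊤ : Subgroup P) (by simp)
  · exact two_gen_of_injective_quaternion e.toMonoidHom e.injective

/-- Sylow subgroups for odd primes are cyclic. -/
theorem isCyclic_sylow_of_odd {G : Type*} [Group G] [Finite G] (hFR : HasFreeRep G) (p : ℕ)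
    [hp : Fact p.Prime] (hp2 : p ≠ 2) (P : Sylow p G) : IsCyclic P := by
  rcases D3 hFR p P with hc | ⟨n, ⟨e⟩⟩
  · exact hc
  · exfalso
    have h1 : Nat.card P = 4 * 2 ^ n := by
      rw [Nat.card_congr e.toEquiv, Nat.card_eq_fintype_card, QuaternionGroup.card]
    obtain ⟨j, hj⟩ := IsPGroup.iff_card.mp P.isPGroup'
    have h2 : 2 ∣ p ^ j := by rw [← hj, h1]; exact ⟨2 * 2 ^ n, by ring⟩
    exact hp2 ((Nat.prime_dvd_prime_iff_eq Nat.prime_two hp.out).mp
      (Nat.prime_two.dvd_of_dvd_pow h2)).symm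

/-- A subgroup whose order is not divisible by `8` has all Sylow subgroups cyclic. -/
theorem isZGroup_of_not_eight_dvd {G : Type*} [Group G] [Finite G] (hFR : HasFreeRep G)
    (N : Subgroup G) (h8 : ¬ 8 ∣ Nat.card N) : IsZGroup N := by
  constructor
  intro p hp P
  have : Fact p.Prime := ⟨hp⟩
  rcases D3 (hFR.subgroup N) p P with hc | ⟨n, ⟨e⟩⟩
  · exact hc
  · have h1 : Nat.card P = 4 * 2 ^ n := by
      rw [Nat.card_congr e.toEquiv, Nat.card_eq_fintype_card, QuaternionGroup.card]
    have h2 : Nat.card P ∣ Nat.card N := Subgroup.card_subgroup_dvd_card _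
    rcases n with _ | n
    · have hc : IsCyclic (QuaternionGroup (2 ^ 0)) := by
        rw [pow_zero]; exact QuaternionGroup.quaternionGroup_one_isCyclic
      exact isCyclic_of_injective e.toMonoidHom e.injective
    · exfalso
      apply h8
      rw [h1] at h2
      exact dvd_trans ⟨2 ^ n, by ring⟩ h2

end Cfsg.Agent.Lib.Helper38.Z91
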