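import Mathlib
import Cfsg.Agent.Lib.Helper38.Z91Defs
import Cfsg.Agent.Lib.Helper77.Frobenius
import Cfsg.Agent.Lib.Helper14.PConstrained
import Cfsg.Agent.Lib.Helper24.Z91W1a
import Cfsg.Agent.Lib.Helper24.Z91W1b

set_option autoImplicit false
set_option linter.unusedVariables false

/-! Rung W2: the soluble case without a normal 2-complement (`A₄` or `S₄`). -/

namespace Cfsg.Agent.Lib.Helper38.Z91

open Subgroup Cfsg.Agent.Lib.Helper61.Zass Cfsg.Agent.Lib.Helper38.Zass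

/-- involutions lift through a quotient by a normal subgroup of odd order -/
theorem exists_involution_lift {G : Type*} [Group G] [Finite G] (O : Subgroup G) [O.Normal]
    (hO : (Nat.card O).Coprime 2) (y : G ⧸ O) (hy : orderOf y = 2) :
    ∃ u : G, orderOf u = 2 ∧ (u : G ⧸ O) = y := by
  obtain ⟨s, rfl⟩ := QuotientGroup.mk'_surjective O y
  rw [QuotientGroup.mk'_apply] at hy ⊢
  have hn : 2 ∣ orderOf s := by
    rw [← hy]
    apply orderOf_dvd_of_pow_eq_one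
    rw [← QuotientGroup.mk_pow, pow_orderOf_eq_one]; rfl
  obtain ⟨k, hk⟩ := hn
  have hpos : 0 < orderOf s := orderOf_pos s
  have hk0 : k ≠ 0 := by rintro rfl; omega
  have hu : orderOf (s ^ k) = 2 := by
    rw [orderOf_pow_of_dvd hk0 ⟨2, by rw [hk, mul_comm]⟩, hk]
    exact Nat.mul_div_cancel _ (Nat.pos_of_ne_zero hk0)
  have hy2 : (s : G ⧸ O) ^ 2 = 1 := by rw [← hy]; exact pow_orderOf_eq_one _
  refine ⟨s ^ k, hu, ?_⟩
  rcases Nat.even_or_odd' k with ⟨j, rfl | rfl⟩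
  · exfalso
    have h1 : ((s ^ (2 * j) : G) : G ⧸ O) = 1 := by
      rw [QuotientGroup.mk_pow, pow_mul, hy2, one_pow]
    have h2 : s ^ (2 * j) ∈ O := (QuotientGroup.eq_one_iff _).mp h1
    have h3 : orderOf (⟨s ^ (2 * j), h2⟩ : O) ∣ Nat.card O := orderOf_dvd_natCard _
    rw [Subgroup.orderOf_mk, hu] at h3
    have := Nat.Coprime.eq_one_of_dvd hO.symm h3
    omega
  · rw [QuotientGroup.mk_pow, pow_succ, pow_mul, hy2, one_pow, one_mul]

theorem not_eight_dvd_ker {G X : Type*} [Group G] [Finite G] [Group X] (O : Subgroup G) [O.Normal]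
    (hO : (Nat.card O).Coprime 2) (f : (G ⧸ O) →* X) (hf : Nat.card f.ker = 2) :
    ¬ 8 ∣ Nat.card (f.comp (QuotientGroup.mk' O)).ker := by
  have h1 : (f.comp (QuotientGroup.mk' O)).ker = f.ker.comap (QuotientGroup.mk' O) := by
    rw [MonoidHom.comap_ker]
  have h2 : Nat.card (f.ker.comap (QuotientGroup.mk' O)) = Nat.card f.ker * Nat.card O := by
    rw [← Cfsg.Agent.Lib.Helper14.card_mul_relIndex
      (Cfsg.Agent.Lib.Helper14.le_comap_mk' O f.ker),
      Cfsg.Agent.Lib.Helper14.relIndex_comap_mk', mul_comm]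
  rw [h1, h2, hf]
  intro h8
  have : 2 ∣ Nat.card O := by omega
  have := Nat.Coprime.eq_one_of_dvd hO.symm this
  omega

theorem exists_A4_S4 {G : Type*} [Group G] [Finite G] (hFR : HasFreeRep G)
    (hsol : Group.IsSolvable G) (hK : ¬ Cfsg.Agent.Lib.Helper77.NPC 2 G) :
    ∃ N : Subgroup G, N.Normal ∧ IsZGroup N ∧
      ((∃ f : G →* alternatingGroup (Fin 4), Function.Surjective f ∧ f.ker = N) ∨
       (∃ f : G →* Equiv.Perm (Fin 4), Function.Surjective f ∧ f.ker = N)) := by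
  have : Fact (Nat.Prime 2) := ⟨Nat.prime_two⟩
  have hchar := Cfsg.Agent.Lib.Helper14.pPrimeCore_characteristic 2 G
  have hOn : (Cfsg.pPrimeCore 2 G).Normal := inferInstance
  have hOodd : (Nat.card (Cfsg.pPrimeCore 2 G)).Coprime 2 :=
    Cfsg.Agent.Lib.Helper14.card_pPrimeCore_coprime
  have hO : Cfsg.pPrimeCore 2 (G ⧸ Cfsg.pPrimeCore 2 G) = ⊥ :=
    Cfsg.Agent.Lib.Helper14.pPrimeCore_quotient_pPrimeCore
  have hinv : ∀ s t : G ⧸ Cfsg.pPrimeCore 2 G, orderOf s = 2 → orderOf t = 2 → s = t := by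
    intro s t hs ht
    obtain ⟨u, hu, rfl⟩ := exists_involution_lift _ hOodd s hs
    obtain ⟨v, hv, rfl⟩ := exists_involution_lift _ hOodd t ht
    rw [D1 hFR u v hu hv]
  have h2 : ¬ IsPGroup 2 (G ⧸ Cfsg.pPrimeCore 2 G) := by
    intro h
    obtain ⟨k, hk⟩ := IsPGroup.iff_card.mp h
    exact hK ⟨_, hOn, hOodd, k, hk⟩
  have hsolY : Group.IsSolvable (G ⧸ Cfsg.pPrimeCore 2 G) := inferInstance
  obtain ⟨hQ8, hcard⟩ := Cfsg.Agent.Lib.Helper24.Z91.W1a hO hinv h2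
  have hQn := Cfsg.Agent.Lib.Helper53.pCore_normal 2 (G ⧸ Cfsg.pPrimeCore 2 G)
  have hCQ := Cfsg.Agent.S0017.result 2 hO
  obtain ⟨z, hz⟩ : ∃ z : G ⧸ Cfsg.pPrimeCore 2 G, orderOf z = 2 := by
    apply exists_prime_orderOf_dvd_card' 2
    rcases hcard with h | h <;> rw [h] <;> norm_num
  have hzc : Nat.card (zpowers z) = 2 := by rw [Nat.card_zpowers, hz]
  rcases hcard with hcard | hcard
  · obtain ⟨f, hf, hker⟩ := Cfsg.Agent.Lib.Helper24.Z91.recog12 hcard hinv _ hQ8 hCQ z hz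
    refine ⟨(f.comp (QuotientGroup.mk' _)).ker, inferInstance, ?_, Or.inl ⟨_, ?_, rfl⟩⟩
    · apply isZGroup_of_not_eight_dvd hFR
      apply not_eight_dvd_ker _ hOodd
      rw [hker, hzc]
    · exact hf.comp (QuotientGroup.mk'_surjective _)
  · obtain ⟨f, hf, hker⟩ := Cfsg.Agent.Lib.Helper24.Z91.recog24 hcard hinv _ hQ8 hCQ z hz
    refine ⟨(f.comp (QuotientGroup.mk' _)).ker, inferInstance, ?_, Or.inr ⟨_, ?_, rfl⟩⟩
    · apply isZGroup_of_not_eight_dvd hFR
      apply not_eight_dvd_ker _ hOodd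
      rw [hker, hzc]
    · exact hf.comp (QuotientGroup.mk'_surjective _)

end Cfsg.Agent.Lib.Helper38.Z91
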