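import Mathlib
import Cfsg.Agent.S2119

set_option autoImplicit false

/-! A normal subgroup with a `G`-invariant surjection onto `A_n` gives a homomorphism `G → S_n`. -/

namespace Cfsg.Agent.Lib.Helper38.Z91

open Subgroup

section

variable {G : Type*} [Group G] {n : ℕ} (S : Subgroup G) [hS : S.Normal]
  (π : S →* alternatingGroup (Fin n)) (hπ : Function.Surjective π)
  (hZ : ∀ (g : G) (s : S), π s = 1 → π (MulAut.conjNormal g s) = 1)

include hZ in
theorem pi_conj_congr (g : G) {s t : S} (h : π s = π t) :
    π (MulAut.conjNormal g s) = π (MulAut.conjNormal g t) := by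
  have h1 : π (s⁻¹ * t) = 1 := by rw [map_mul, map_inv, h, inv_mul_cancel]
  have h2 := hZ g _ h1
  rw [map_mul, map_mul, map_inv, map_inv] at h2
  exact (inv_mul_eq_one.mp h2)

include hπ hZ in
theorem pi_conj_surjInv (g : G) (s : S) :
    π (MulAut.conjNormal g (Function.surjInv hπ (π s))) = π (MulAut.conjNormal g s) :=
  pi_conj_congr S π hZ g (Function.surjInv_eq hπ (π s))

/-- the induced action on `A_n` -/
noncomputable def indAut : G →* MulAut (alternatingGroup (Fin n)) where
  toFun g :=
    { toFun := fun a => π (MulAut.conjNormal g (Function.surjInv hπ a))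
      invFun := fun a => π (MulAut.conjNormal g⁻¹ (Function.surjInv hπ a))
      left_inv := fun a => by
        show π (MulAut.conjNormal g⁻¹ (Function.surjInv hπ (π _))) = a
        rw [pi_conj_surjInv S π hπ hZ, ← MulAut.mul_apply, ← map_mul, inv_mul_cancel, map_one,
          MulAut.one_apply, Function.surjInv_eq hπ]
      right_inv := fun a => by
        show π (MulAut.conjNormal g (Function.surjInv hπ (π _))) = a
        rw [pi_conj_surjInv S π hπ hZ, ← MulAut.mul_apply, ← map_mul, mul_inv_cancel, map_one,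
          MulAut.one_apply, Function.surjInv_eq hπ]
      map_mul' := fun a b => by
        rw [← map_mul, ← map_mul]
        apply pi_conj_congr S π hZ
        rw [map_mul, Function.surjInv_eq hπ, Function.surjInv_eq hπ, Function.surjInv_eq hπ] }
  map_one' := by
    apply MulEquiv.ext
    intro a
    show π (MulAut.conjNormal (1 : G) (Function.surjInv hπ a)) = a
    rw [map_one, MulAut.one_apply, Function.surjInv_eq hπ]
  map_mul' g h := by
    apply MulEquiv.ext
    intro a
    show π (MulAut.conjNormal (g * h) (Function.surjInv hπ a)) =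
      π (MulAut.conjNormal g (Function.surjInv hπ (π (MulAut.conjNormal h (Function.surjInv hπ a)))))
    rw [pi_conj_surjInv S π hπ hZ, map_mul, MulAut.mul_apply]

theorem indAut_apply (g : G) (s : S) :
    indAut S π hπ hZ g (π s) = π (MulAut.conjNormal g s) :=
  pi_conj_surjInv S π hπ hZ g s

end

theorem exists_hom_perm {G : Type*} [Group G] (n : ℕ) (hn : 4 ≤ n) (h6 : n ≠ 6)
    (S : Subgroup G) [hS : S.Normal] (π : S →* alternatingGroup (Fin n))
    (hπ : Function.Surjective π)
    (hZ : ∀ (g : G) (s : S), π s = 1 → π (MulAut.conjNormal g s) = 1) :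
    ∃ Θ : G →* Equiv.Perm (Fin n),
      (∀ s : S, Θ s = (π s : Equiv.Perm (Fin n))) ∧
      (∀ g : G, Θ g = 1 ↔ ∀ s : S, π (MulAut.conjNormal g s) = π s) := by
  let E : Equiv.Perm (Fin n) ≃* MulAut (alternatingGroup (Fin n)) :=
    MulEquiv.ofBijective MulAut.conjNormal (Cfsg.Agent.S2119.result n hn h6)
  let A := indAut S π hπ hZ
  let Θ : G →* Equiv.Perm (Fin n) := E.symm.toMonoidHom.comp A
  have hE : ∀ g, MulAut.conjNormal (Θ g) = A g := fun g => E.apply_symm_apply (A g)
  refine ⟨Θ, ?_, ?_⟩
  · intro s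
    apply (Cfsg.Agent.S2119.result n hn h6).1
    rw [hE]
    apply MulEquiv.ext
    intro a
    obtain ⟨t, rfl⟩ := hπ a
    rw [indAut_apply]
    apply Subtype.ext
    rw [MulAut.conjNormal_apply]
    have : MulAut.conjNormal (s : G) t = s * t * s⁻¹ := by
      apply Subtype.ext
      rw [MulAut.conjNormal_apply]
      rfl
    rw [this, map_mul, map_mul, map_inv]
    rfl
  · intro g
    constructor
    · intro h s
      have h1 := hE g
      rw [h, map_one] at h1
      rw [← indAut_apply S π hπ hZ g s]
      show A g (π s) = π s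
      rw [← h1, MulAut.one_apply]
    · intro h
      apply (Cfsg.Agent.S2119.result n hn h6).1
      rw [hE, map_one]
      apply MulEquiv.ext
      intro a
      obtain ⟨t, rfl⟩ := hπ a
      rw [indAut_apply, h, MulAut.one_apply]

/-- a homomorphism to `S_n` whose image contains `A_n` is onto `A_n` or onto `S_n` -/
theorem An_or_Sn {G : Type*} [Group G] {n : ℕ} (Θ : G →* Equiv.Perm (Fin n))
    (hA : ∀ a : alternatingGroup (Fin n), ∃ g, Θ g = a) :
    (∃ f : G →* alternatingGroup (Fin n), Function.Surjective f ∧ f.ker = Θ.ker) ∨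
    (∃ f : G →* Equiv.Perm (Fin n), Function.Surjective f ∧ f.ker = Θ.ker) := by
  by_cases h : ∀ g, Θ g ∈ alternatingGroup (Fin n)
  · left
    refine ⟨Θ.codRestrict _ h, ?_, ?_⟩
    · intro a
      obtain ⟨g, hg⟩ := hA a
      exact ⟨g, Subtype.ext hg⟩
    · ext g
      rw [MonoidHom.mem_ker, MonoidHom.mem_ker]
      constructor
      · intro h1
        exact congrArg Subtype.val h1
      · intro h1
        exact Subtype.ext h1
  · right
    push Not at h
    obtain ⟨g₀, hg₀⟩ := h
    refine ⟨Θ, ?_, rfl⟩
    intro σ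
    by_cases hσ : σ ∈ alternatingGroup (Fin n)
    · obtain ⟨g, hg⟩ := hA ⟨σ, hσ⟩
      exact ⟨g, hg⟩
    · have h1 : σ * (Θ g₀)⁻¹ ∈ alternatingGroup (Fin n) := by
        rw [Equiv.Perm.mem_alternatingGroup] at hσ hg₀ ⊢
        rw [map_mul, map_inv]
        rcases Int.units_eq_one_or (Equiv.Perm.sign σ) with h2 | h2
        · exact absurd h2 hσ
        · rcases Int.units_eq_one_or (Equiv.Perm.sign (Θ g₀)) with h3 | h3
          · exact absurd h3 hg₀
          · rw [h2, h3]; rfl
      obtain ⟨g, hg⟩ := hA ⟨_, h1⟩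
      refine ⟨g * g₀, ?_⟩
      rw [map_mul, hg]
      simp

end Cfsg.Agent.Lib.Helper38.Z91
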